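/-
helper38: piece N of CALL S4278 (helper18) - over a finite field of odd order every involution of a Chevalley
group is conjugate to an element `h n_w` of the monomial subgroup, `w` a reduced word.
-/
import Cfsg.Agent.Helper18.D4Tor2
import Cfsg.Agent.Helper18.G2Tor3
import Cfsg.Agent.Helper17.ChevUniMem

set_option autoImplicit false

namespace Cfsg.Agent.Helper38.G2O

open Cfsg Cfsg.Lie Cfsg.Agent.Helper36 Cfsg.Agent.Helper17 Cfsg.Agent.Helper18

section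

variable {D : ChevalleyDatum} {F : Type*} [Field F] {η : ℕ → ℕ → ℤ}

/-- An element of odd order inverted by `m` (local copy of piece ODD). -/
theorem g2n_odd_trick {G : Type*} [Group G] (u m : G) (k : ℕ) (hk : Odd k) (huk : u ^ k = 1)
    (hm : m * u * m⁻¹ = u⁻¹) : ∃ v ∈ Subgroup.zpowers u, v * m * v⁻¹ = u * m := by
  obtain ⟨j, rfl⟩ := hk
  refine ⟨u ^ (j + 1), Subgroup.pow_mem _ (Subgroup.mem_zpowers u) _, ?_⟩
  have h1 : ∀ a : ℕ, m * u ^ a * m⁻¹ = (u⁻¹) ^ a := by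
    intro a
    rw [← hm, conj_pow]
  have h3 : m * (u ^ (j + 1))⁻¹ * m⁻¹ = u ^ (j + 1) := by
    have e : m * (u ^ (j + 1))⁻¹ * m⁻¹ = (m * u ^ (j + 1) * m⁻¹)⁻¹ := by group
    rw [e, h1, inv_pow, inv_inv]
  have h2 : m * (u ^ (j + 1))⁻¹ = u ^ (j + 1) * m := by
    calc m * (u ^ (j + 1))⁻¹ = (m * (u ^ (j + 1))⁻¹ * m⁻¹) * m := by group
      _ = u ^ (j + 1) * m := by rw [h3]
  have h4 : u ^ (j + 1) * u ^ (j + 1) = u ^ (2 * j + 1) * u := by
    rw [← pow_add, ← pow_succ]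
    congr 1
    omega
  calc u ^ (j + 1) * m * (u ^ (j + 1))⁻¹ = u ^ (j + 1) * (m * (u ^ (j + 1))⁻¹) := by group
    _ = u ^ (j + 1) * (u ^ (j + 1) * m) := by rw [h2]
    _ = (u ^ (j + 1) * u ^ (j + 1)) * m := by group
    _ = u * m := by rw [h4, huk, one_mul]

/-- Powers in a semidirect product `U ⋊ H` (local copy of piece PW). -/
theorem g2n_pow_split {G : Type*} [Group G] (U H : Subgroup G) (hUH : U ⊓ H = ⊥)
    (hN : H ≤ Subgroup.normalizer (U : Set G)) {u z : G} (hu : u ∈ U) (hz : z ∈ H) (k : ℕ)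
    (h : (u * z) ^ k = 1) : z ^ k = 1 := by
  have key : ∀ k : ℕ, ∃ w ∈ U, (u * z) ^ k = w * z ^ k := by
    intro k
    induction k with
    | zero => exact ⟨1, one_mem _, by simp⟩
    | succ k ih =>
      obtain ⟨w, hw, e⟩ := ih
      refine ⟨w * (z ^ k * u * (z ^ k)⁻¹), mul_mem hw ?_, ?_⟩
      · exact (Subgroup.mem_normalizer_iff.mp (hN (pow_mem hz k)) u).mp hu
      · rw [pow_succ, e, pow_succ]
        group
  obtain ⟨w, hw, e⟩ := key k
  rw [h] at e
  have hzk : z ^ k = w⁻¹ := by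
    have : z ^ k = w⁻¹ * (w * z ^ k) := by group
    rw [this, ← e, mul_one]
  have hmem : z ^ k ∈ U ⊓ H := Subgroup.mem_inf.mpr ⟨by rw [hzk]; exact inv_mem hw, pow_mem hz k⟩
  rw [hUH, Subgroup.mem_bot] at hmem
  exact hmem

/-- The diagonal subgroup has exponent dividing `q - 1` (local copy of piece HEXP). -/
theorem g2n_torus_exp [Fintype F] (hD : D ∈ [chevG2, chevB2, chevD4, chevF4, chevE6, chevE7, chevE8])
    {h : GL D.Idx F} (hh : h ∈ D.diagonalSubgroup F) : h ^ (Fintype.card F - 1) = 1 := by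
  classical
  have hH : D.diagonalSubgroup F = torus D F :=
    diagonalSubgroup_eq_torus (simpleOK_of_mem hD) (hDiag_of_mem hD) (rootElts_of_mem hD)
  rw [hH, ← range_torusHom] at hh
  obtain ⟨z, rfl⟩ := hh
  rw [← map_pow]
  have hz : z ^ (Fintype.card F - 1) = 1 := by
    funext i
    rw [Pi.pow_apply, Pi.one_apply, ← Fintype.card_units]
    exact pow_card_eq_one
  rw [hz, map_one]

/-- The unipotent subgroup has exponent dividing `q ^ N` (local copy of piece UEXP). -/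
theorem g2n_unip_exp [Fintype F] (R : BRel D F η)
    (hD : D ∈ [chevG2, chevB2, chevD4, chevF4, chevE6, chevE7, chevE8])
    {u : GL D.Idx F} (hu : u ∈ D.posUnipotent F) : u ^ (Fintype.card F ^ (D.nroots / 2)) = 1 := by
  have hc := card_posUnipotent_of_mem (F := F) hD (fun r s hr hs h1 h2 => R.cf r hr s hs h1 h2)
  have h1 : (⟨u, hu⟩ : D.posUnipotent F) ^ Nat.card (D.posUnipotent F) = 1 := pow_card_eq_one'
  rw [hc] at h1
  have h2 := congrArg Subtype.val h1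
  simpa using h2

/-- PIECE N: every involution is conjugate to an element of the monomial subgroup, written with
a reduced word. -/
theorem g2o_invol_conj_monomial [Fintype F]
    (hD : D ∈ [chevG2, chevB2, chevD4, chevF4, chevE6, chevE7, chevE8])
    (hF : Odd (Fintype.card F)) (R : BRel D F (etaN D)) {s : GL D.Idx F} (hs : s ∈ D.group F)
    (hs2 : s * s = 1) :
    ∃ g ∈ D.group F, ∃ L, ValidW D L ∧ RedW D L ∧ ∃ h ∈ D.diagonalSubgroup F,
      g * s * g⁻¹ = h * R.nW L := by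
  obtain ⟨b, hb, L, hL, hred, u, hu, rfl⟩ := exists_normal_form_red R s hs
  have hsub := Subgroup.closure_mono (R.umGens_subset (F := F) hL)
  have huU : u ∈ D.posUnipotent F := unGens_le_posUnipotent _ (hsub hu)
  have hn := R.nW_mem_monomial hL
  have hb1 : u * b ∈ D.borelSubgroup F := mul_mem (BRel.U_le_B D F huU) hb
  have hsq : (u * b * R.nW L) * (u * b * R.nW L) = 1 := by
    have e0 : (u * b * R.nW L) * (u * b * R.nW L) =
        u * ((b * R.nW L * u) * (b * R.nW L * u)) * u⁻¹ := by group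
    rw [e0, hs2]
    group
  have e : R.nW L = (u * b)⁻¹ * (R.nW L)⁻¹ * (u * b)⁻¹ := by
    calc R.nW L
        = (u * b)⁻¹ * ((u * b * R.nW L) * (u * b * R.nW L)) * (R.nW L)⁻¹ * (u * b)⁻¹ := by group
      _ = (u * b)⁻¹ * (R.nW L)⁻¹ * (u * b)⁻¹ := by rw [hsq, mul_one]
  have h0 : (R.nW L)⁻¹ * (R.nW L)⁻¹ ∈ D.diagonalSubgroup F :=
    R.double_coset_unique hn (inv_mem hn) (inv_mem hb1) (inv_mem hb1) e
  have hbm : u * b ∈ ((D.posUnipotent F ⊔ D.diagonalSubgroup F : Subgroup (GL D.Idx F)) :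
      Set (GL D.Idx F)) := hb1
  rw [Subgroup.coe_mul_of_right_le_normalizer_left _ _ R.hU] at hbm
  obtain ⟨u1, hu1', h1, hh1', hbe⟩ := hbm
  have hu1 : u1 ∈ D.posUnipotent F := hu1'
  have hh1 : h1 ∈ D.diagonalSubgroup F := hh1'
  have hbe' : u1 * h1 = u * b := hbe
  have hmm : (h1 * R.nW L) * (h1 * R.nW L) ∈ D.diagonalSubgroup F := by
    have e2 : (h1 * R.nW L) * (h1 * R.nW L) =
        h1 * (R.nW L * h1 * (R.nW L)⁻¹) * ((R.nW L)⁻¹ * (R.nW L)⁻¹)⁻¹ := by group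
    rw [e2]
    exact mul_mem (mul_mem hh1 (R.nW_conj_H hL _ hh1)) (inv_mem h0)
  have hsq' : (u1 * (h1 * R.nW L)) * (u1 * (h1 * R.nW L)) = 1 := by
    have e3 : u1 * (h1 * R.nW L) = u * b * R.nW L := by rw [← mul_assoc, hbe']
    rw [e3]
    exact hsq
  have hconj : (h1 * R.nW L) * u1 * (h1 * R.nW L)⁻¹ =
      u1⁻¹ * ((h1 * R.nW L) * (h1 * R.nW L))⁻¹ := by
    have e4 : (h1 * R.nW L) * u1 * (h1 * R.nW L)⁻¹ =
        u1⁻¹ * ((u1 * (h1 * R.nW L)) * (u1 * (h1 * R.nW L))) *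
          ((h1 * R.nW L) * (h1 * R.nW L))⁻¹ := by group
    rw [e4, hsq', mul_one]
  have huk : u1 ^ (Fintype.card F ^ (D.nroots / 2)) = 1 := g2n_unip_exp R hD hu1
  have hzk : (u1⁻¹ * ((h1 * R.nW L) * (h1 * R.nW L))⁻¹) ^ (Fintype.card F ^ (D.nroots / 2)) = 1 := by
    rw [← hconj, conj_pow, huk]
    group
  have hz1 : (((h1 * R.nW L) * (h1 * R.nW L))⁻¹) ^ (Fintype.card F ^ (D.nroots / 2)) = 1 :=
    g2n_pow_split (D.posUnipotent F) (D.diagonalSubgroup F) R.uh R.hU (inv_mem hu1) (inv_mem hmm) _ hzk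
  have hz2 : (((h1 * R.nW L) * (h1 * R.nW L))⁻¹) ^ (Fintype.card F - 1) = 1 :=
    g2n_torus_exp hD (inv_mem hmm)
  have hcop : Nat.Coprime (Fintype.card F ^ (D.nroots / 2)) (Fintype.card F - 1) := by
    apply Nat.Coprime.pow_left
    have hq : 1 ≤ Fintype.card F := Fintype.card_pos
    exact (Nat.coprime_self_sub_right hq).mpr (Nat.coprime_one_right _)
  have hz : ((h1 * R.nW L) * (h1 * R.nW L))⁻¹ = 1 :=
    orderOf_eq_one_iff.mp (Nat.eq_one_of_dvd_coprimes hcop (orderOf_dvd_of_pow_eq_one hz1)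
      (orderOf_dvd_of_pow_eq_one hz2))
  have hinvt : (h1 * R.nW L) * u1 * (h1 * R.nW L)⁻¹ = u1⁻¹ := by rw [hconj, hz, mul_one]
  obtain ⟨v, hv, hve⟩ := g2n_odd_trick u1 (h1 * R.nW L) _ hF.pow huk hinvt
  have hvU : v ∈ D.posUnipotent F := (Subgroup.zpowers_le.mpr hu1) hv
  refine ⟨v⁻¹ * u, mul_mem (inv_mem (posUnipotent_le_group R.xadd hvU))
    (posUnipotent_le_group R.xadd huU), L, hL, hred, h1, hh1, ?_⟩
  have e5 : v⁻¹ * u * (b * R.nW L * u) * (v⁻¹ * u)⁻¹ = v⁻¹ * ((u * b) * R.nW L) * v := by group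
  rw [e5, ← hbe']
  have e6 : v⁻¹ * (u1 * h1 * R.nW L) * v = v⁻¹ * (u1 * (h1 * R.nW L)) * v := by group
  rw [e6, ← hve]
  group

end

end Cfsg.Agent.Helper38.G2O
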