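/-
helper38: piece W2 of CALL S4278 (helper18) - if `h n_w` is an involution then `w²` maps no positive root to a
negative root.
-/
import Cfsg.Agent.Helper18.D4Tor2
import Cfsg.Agent.Helper18.G2Tor3
import Cfsg.Agent.Helper17.ChevUniMem

set_option autoImplicit false

namespace Cfsg.Agent.Helper38.G2O

open Cfsg Cfsg.Lie Cfsg.Agent.Helper36 Cfsg.Agent.Helper17 Cfsg.Agent.Helper18

section

variable {D : ChevalleyDatum} {F : Type*} [Field F] {η : ℕ → ℕ → ℤ}

/-- PIECE W2: if `h n_w` is an involution then `w²` maps no positive root to a negative root. -/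
theorem g2o_sq_pos (R : BRel D F η) {L : List ℕ} (hL : ValidW D L) {h : GL D.Idx F}
    (hh : h ∈ D.diagonalSubgroup F) (hm : (h * R.nW L) * (h * R.nW L) = 1) {s : ℕ}
    (hs : D.IsPosRoot s) : ¬ D.IsNegRoot (wW D L (wW D L s)) := by
  intro hneg
  have hs1 : wW D L s < D.nroots := R.wf.wW_lt hL hs.1
  have hs2 : wW D L (wW D L s) < D.nroots := R.wf.wW_lt hL hs1
  obtain ⟨c1, hc1⟩ := R.hx h hh _ hs1
  obtain ⟨c2, hc2⟩ := R.hx h hh _ hs2
  have key : ∀ {r : ℕ} (hr : r < D.nroots) (c : F)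
      (hc : ∀ t : F, h * xGL R.xadd (wW D L r) t * h⁻¹ = xGL R.xadd (wW D L r) (c * t)) (t : F),
      (h * R.nW L) * xGL R.xadd r t * (h * R.nW L)⁻¹ =
        xGL R.xadd (wW D L r) (c * ((eW D η L r : F) * t)) := by
    intro r hr c hc t
    have e : (h * R.nW L) * xGL R.xadd r t * (h * R.nW L)⁻¹ =
        h * (R.nW L * xGL R.xadd r t * (R.nW L)⁻¹) * h⁻¹ := by group
    rw [e, R.nW_conj_x hL hr, hc]
  have e1 := key hs.1 c1 hc1 1
  have e2 := key hs1 c2 hc2 (c1 * ((eW D η L s : F) * 1))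
  rw [← e1] at e2
  have hinv : (h * R.nW L)⁻¹ = h * R.nW L := inv_eq_of_mul_eq_one_left hm
  have e3 : xGL R.xadd s 1 = xGL R.xadd (wW D L (wW D L s))
      (c2 * ((eW D η L (wW D L s) : F) * (c1 * ((eW D η L s : F) * 1)))) := by
    rw [← e2, hinv]
    calc xGL R.xadd s 1
        = ((h * R.nW L) * (h * R.nW L)) * xGL R.xadd s 1 * ((h * R.nW L) * (h * R.nW L)) := by
          rw [hm, one_mul, mul_one]
      _ = _ := by group
  have hmem : xGL R.xadd s 1 ∈ D.borelSubgroup F ⊓ D.negUnipotent F := by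
    refine Subgroup.mem_inf.mpr
      ⟨BRel.U_le_B D F (Subgroup.subset_closure ⟨s, 1, hs, xGL_val R.xadd s 1⟩), ?_⟩
    rw [e3]
    exact Subgroup.subset_closure ⟨_, _, hneg, xGL_val R.xadd _ _⟩
  rw [R.bv, Subgroup.mem_bot] at hmem
  have h3 := congrArg Units.val hmem
  rw [xGL_val, Units.val_one] at h3
  exact one_ne_zero (R.xinj s hs.1 1 h3)

end

end Cfsg.Agent.Helper38.G2O
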