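import Mathlib
import Cfsg.Prelude.Def_GeometricClasses
import Cfsg.Prelude.Def_Classical
import Cfsg.Agent.Helper98.ELPDefs
import Cfsg.Agent.Helper18.ELPSIEGISO
import Cfsg.Agent.Helper85.ELPCONJ

set_option autoImplicit false

/-!
# Sub-CALL ELP (helper98), piece COMM (helper38): the Siegel element of `A T Aᵀ - T` lies in `Ω`
(it is the commutator of the Levi element of `A` with the Siegel element of `T`).
The Levi isometry fact (piece LEVIISO) is proved here as a local copy.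
-/

namespace Cfsg.Agent.Helper38.ELP

open Matrix Cfsg.Agent.Helper98.ELP
open scoped MatrixGroups

variable {n : Type} [Fintype n] [DecidableEq n] {F : Type*} [Field F]

/-- (LEVIISO, local copy) the Levi element is an isometry of `qp`. -/
theorem elpcomm_levi_mem_iso (A : GL n F) : levi A ∈ Cfsg.isometryGroup F (qp n F) := by
  intro u _
  show qp n F ((levi A : Matrix (n ⊕ n) (n ⊕ n) F) *ᵥ u) = qp n F u
  rw [levi_coe]
  unfold qp
  have h1 : ∀ i : n,
      (Matrix.fromBlocks (A : Matrix n n F) 0 0 ((A⁻¹ : GL n F) : Matrix n n F)ᵀ *ᵥ u) (.inl i) =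
        ((A : Matrix n n F) *ᵥ (fun j => u (.inl j))) i := by
    intro i
    rw [Matrix.fromBlocks_mulVec]
    simp only [Sum.elim_inl, Matrix.zero_mulVec, add_zero]
    rfl
  have h2 : ∀ i : n,
      (Matrix.fromBlocks (A : Matrix n n F) 0 0 ((A⁻¹ : GL n F) : Matrix n n F)ᵀ *ᵥ u) (.inr i) =
        ((((A⁻¹ : GL n F) : Matrix n n F))ᵀ *ᵥ (fun j => u (.inr j))) i := by
    intro i
    rw [Matrix.fromBlocks_mulVec]
    simp only [Sum.elim_inr, Matrix.zero_mulVec, zero_add]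
    rfl
  have h3 : ∑ i : n, (Matrix.fromBlocks (A : Matrix n n F) 0 0
        ((A⁻¹ : GL n F) : Matrix n n F)ᵀ *ᵥ u) (.inl i) *
      (Matrix.fromBlocks (A : Matrix n n F) 0 0 ((A⁻¹ : GL n F) : Matrix n n F)ᵀ *ᵥ u) (.inr i) =
      ((A : Matrix n n F) *ᵥ (fun j => u (.inl j))) ⬝ᵥ
        ((((A⁻¹ : GL n F) : Matrix n n F))ᵀ *ᵥ (fun j => u (.inr j))) := by
    refine Finset.sum_congr rfl (fun i _ => ?_)
    rw [h1, h2]
  have h4 : ((A⁻¹ : GL n F) : Matrix n n F) * (A : Matrix n n F) = 1 := by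
    rw [← Units.val_mul, inv_mul_cancel, Units.val_one]
  rw [h3, Matrix.mulVec_transpose, dotProduct_comm, Matrix.dotProduct_mulVec,
    Matrix.vecMul_vecMul, h4, Matrix.vecMul_one, dotProduct_comm]
  rfl

/-- COMM from its three inputs. -/
theorem elpcomm_aux (A : GL n F) (T : Matrix n n F)
    (hs : sieg T ∈ Cfsg.isometryGroup F (qp n F)) (hl : levi A ∈ Cfsg.isometryGroup F (qp n F))
    (hc : levi A * sieg T * (levi A)⁻¹ = sieg ((A : Matrix n n F) * T * (A : Matrix n n F)ᵀ)) :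
    sieg ((A : Matrix n n F) * T * (A : Matrix n n F)ᵀ - T) ∈ Cfsg.Geo.omegaGL (qp n F) := by
  let a : Cfsg.isometryGroup F (qp n F) := ⟨levi A, hl⟩
  let b : Cfsg.isometryGroup F (qp n F) := ⟨sieg T, hs⟩
  refine ⟨a * b * a⁻¹ * b⁻¹, ?_, ?_⟩
  · have h := Subgroup.commutator_mem_commutator (Subgroup.mem_top a) (Subgroup.mem_top b)
    rw [commutatorElement_def] at h
    exact h
  · show levi A * sieg T * (levi A)⁻¹ * (sieg T)⁻¹ = _
    rw [hc, sieg_inv, sieg_mul, sub_eq_add_neg]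

/-- COMM: `sieg (A T Aᵀ - T) ∈ Ω(qp)`. -/
theorem sieg_comm_mem (A : GL n F) (T : Matrix n n F) :
    sieg ((A : Matrix n n F) * T * (A : Matrix n n F)ᵀ - T) ∈ Cfsg.Geo.omegaGL (qp n F) :=
  elpcomm_aux A T (Cfsg.Agent.Helper18.ELP.sieg_mem_iso T) (elpcomm_levi_mem_iso A)
    (Cfsg.Agent.Helper85.ELP.levi_conj A T)

end Cfsg.Agent.Helper38.ELP
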