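import Mathlib
import Cfsg.Agent.Helper99.JordanA
import Cfsg.Agent.Helper99.JordanB

/-!
# Classification of nilpotent endomorphisms by kernel dimensions (helper38)

* `cyclic_linearIndependent`, `exists_compl_cyclic`: for `T ^ (m+1) = 0`, `T ^ m v ≠ 0` the vectors
  `v, T v, …, T ^ m v` are independent and their span has a `T`-invariant complement.
* `exists_multiset_ker_pow`: a nilpotent `T` has kernel dimensions
  `finrank ker (T ^ k) = ∑ min k b` over a multiset of positive block sizes summing to the dimension.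
* `exists_equiv_of_ker_pow`: two nilpotent endomorphisms with the same kernel dimensions are
  similar.
-/

set_option autoImplicit false

namespace Cfsg.Agent.Helper38

open Module

section JordanNil

variable {F : Type*} [Field F] {V : Type*} [AddCommGroup V] [Module F V]

theorem cyclic_coeff_eq_zero (T : Module.End F V) (m : ℕ) (hm : T ^ (m + 1) = 0) (v : V)
    (φ : Module.Dual F V) (hφ : φ ((T ^ m) v) ≠ 0) (c : Fin (m + 1) → F)
    (hc : ∀ j : Fin (m + 1), φ ((T ^ j.val) (∑ i, c i • (T ^ i.val) v)) = 0) : c = 0 := by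
  have key : ∀ i (hi : i < m + 1), c ⟨i, hi⟩ = 0 := by
    intro i
    induction i using Nat.strong_induction_on with
    | _ i ih =>
      intro hi
      have h := hc ⟨m - i, by omega⟩
      simp only [map_sum, map_smul, smul_eq_mul] at h
      rw [Finset.sum_eq_single (⟨i, hi⟩ : Fin (m + 1))] at h
      · have h2 : (T ^ (m - i)) ((T ^ i) v) = (T ^ m) v := by
          rw [← Module.End.mul_apply, ← pow_add]
          congr 2
          omega
        rw [h2] at h
        exact (mul_eq_zero.mp h).resolve_right hφ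
      · intro b _ hb
        rcases Nat.lt_or_ge b.val i with hlt | hge
        · have : c b = 0 := ih b.val hlt b.isLt
          rw [this, zero_mul]
        · have hne : b.val ≠ i := fun h => hb (Fin.ext h)
          have h2 : (T ^ (m - i)) ((T ^ b.val) v) = 0 := by
            rw [← Module.End.mul_apply, ← pow_add]
            have : m - i + b.val = (m + 1) + (b.val - i - 1) := by omega
            rw [this, pow_add, hm, zero_mul, LinearMap.zero_apply]
          rw [h2, map_zero, mul_zero]
      · intro h'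
        exact absurd (Finset.mem_univ _) h'
  funext i
  exact key i.val i.isLt

theorem cyclic_linearIndependent (T : Module.End F V) (m : ℕ) (hm : T ^ (m + 1) = 0) (v : V)
    (hv : (T ^ m) v ≠ 0) : LinearIndependent F (fun i : Fin (m + 1) => (T ^ i.val) v) := by
  obtain ⟨φ, hφ⟩ : ∃ φ : Module.Dual F V, φ ((T ^ m) v) ≠ 0 := by
    by_contra h
    push Not at h
    exact hv ((Module.forall_dual_apply_eq_zero_iff F _).mp h)
  rw [Fintype.linearIndependent_iff]
  intro c hc i
  have := cyclic_coeff_eq_zero T m hm v φ hφ c (fun j => by rw [hc, map_zero, map_zero])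
  rw [this]
  rfl

theorem exists_compl_cyclic [FiniteDimensional F V] (T : Module.End F V) (m : ℕ)
    (hm : T ^ (m + 1) = 0) (v : V) (hv : (T ^ m) v ≠ 0) :
    ∃ W : Submodule F V,
      IsCompl (Submodule.span F (Set.range (fun i : Fin (m + 1) => (T ^ i.val) v))) W ∧
      ∀ x ∈ W, T x ∈ W := by
  obtain ⟨φ, hφ⟩ : ∃ φ : Module.Dual F V, φ ((T ^ m) v) ≠ 0 := by
    by_contra h
    push Not at h
    exact hv ((Module.forall_dual_apply_eq_zero_iff F _).mp h)
  let Λ : V →ₗ[F] (Fin (m + 1) → F) := LinearMap.pi (fun j => φ ∘ₗ (T ^ j.val))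
  have hΛ : ∀ x, x ∈ LinearMap.ker Λ ↔ ∀ j : Fin (m + 1), φ ((T ^ j.val) x) = 0 := by
    intro x
    rw [LinearMap.mem_ker]
    constructor
    · intro h j
      exact congrFun h j
    · intro h
      funext j
      exact h j
  have hli := cyclic_linearIndependent T m hm v hv
  refine ⟨LinearMap.ker Λ, ?_, ?_⟩
  · have hdisj : Submodule.span F (Set.range (fun i : Fin (m + 1) => (T ^ i.val) v)) ⊓
        LinearMap.ker Λ = ⊥ := by
      rw [eq_bot_iff]
      rintro x ⟨hx1, hx2⟩
      obtain ⟨c, rfl⟩ := (Submodule.mem_span_range_iff_exists_fun F).mp hx1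
      have := cyclic_coeff_eq_zero T m hm v φ hφ c ((hΛ _).mp hx2)
      rw [this]
      simp
    have h1 : finrank F (Submodule.span F (Set.range (fun i : Fin (m + 1) => (T ^ i.val) v)))
        = m + 1 := by
      rw [finrank_span_eq_card hli, Fintype.card_fin]
    have h2 := Λ.finrank_range_add_finrank_ker
    have h3 : finrank F (LinearMap.range Λ) ≤ m + 1 := by
      have := Submodule.finrank_le (LinearMap.range Λ)
      simpa using this
    have h4 := Submodule.finrank_sup_add_finrank_inf_eq
      (Submodule.span F (Set.range (fun i : Fin (m + 1) => (T ^ i.val) v))) (LinearMap.ker Λ)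
    rw [hdisj, finrank_bot, add_zero] at h4
    have h5 := Submodule.finrank_le
      (Submodule.span F (Set.range (fun i : Fin (m + 1) => (T ^ i.val) v)) ⊔ LinearMap.ker Λ)
    have htop : Submodule.span F (Set.range (fun i : Fin (m + 1) => (T ^ i.val) v)) ⊔
        LinearMap.ker Λ = ⊤ := Submodule.eq_top_of_finrank_eq (by omega)
    exact ⟨disjoint_iff.mpr hdisj, codisjoint_iff.mpr htop⟩
  · intro x hx
    rw [hΛ] at hx ⊢
    intro j
    rw [← Module.End.mul_apply, ← pow_succ]
    by_cases hj : j.val + 1 < m + 1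
    · exact hx ⟨j.val + 1, hj⟩
    · have : j.val + 1 = m + 1 := by have := j.isLt; omega
      rw [this, hm, LinearMap.zero_apply, map_zero]

theorem concave_seq_eq (d : ℕ → ℕ) (m : ℕ) (h0 : d 0 = 0) (hm1 : d (m + 1) = m + 1)
    (hm : d m ≤ m) (hc : ∀ k, d k + d (k + 2) ≤ 2 * d (k + 1)) : ∀ k, k ≤ m + 1 → d k = k := by
  have step : ∀ j k, k + j = m → d k + 1 ≤ d (k + 1) := by
    intro j
    induction j with
    | zero => intro k hk; have : k = m := by omega
              subst this; omega
    | succ j ih =>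
      intro k hk
      have h1 : d (k + 1) + 1 ≤ d (k + 2) := ih (k + 1) (by omega)
      have h2 := hc k
      omega
  have step' : ∀ k, k ≤ m → d k + 1 ≤ d (k + 1) := fun k hk => step (m - k) k (by omega)
  have lower : ∀ k, k ≤ m + 1 → k ≤ d k := by
    intro k
    induction k with
    | zero => intro _; omega
    | succ k ih =>
      intro hk
      have := ih (by omega)
      have := step' k (by omega)
      omega
  have upper : ∀ j k, k + j = m + 1 → d k + j ≤ m + 1 := by
    intro j
    induction j with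
    | zero => intro k hk; have : k = m + 1 := by omega
              subst this; omega
    | succ j ih =>
      intro k hk
      have h1 := ih (k + 1) (by omega)
      have h2 := step' k (by omega)
      omega
  intro k hk
  have h1 := lower k hk
  have h2 := upper (m + 1 - k) k (by omega)
  omega

theorem finrank_inf_ker_pow_cyclic [FiniteDimensional F V] (T : Module.End F V) (m : ℕ)
    (hm : T ^ (m + 1) = 0) (Z : Submodule F V) (hZ : ∀ x ∈ Z, T x ∈ Z)
    (hfr : finrank F Z = m + 1) (v : V) (hvZ : v ∈ Z) (hv : (T ^ m) v ≠ 0) (k : ℕ) :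
    finrank F (Z ⊓ LinearMap.ker (T ^ k) : Submodule F V) = min k (m + 1) := by
  have htop : ∀ k, m + 1 ≤ k → finrank F (Z ⊓ LinearMap.ker (T ^ k) : Submodule F V) = m + 1 := by
    intro k hk
    have : T ^ k = 0 := by
      obtain ⟨c, rfl⟩ := Nat.exists_eq_add_of_le hk
      rw [pow_add, hm, zero_mul]
    rw [this, LinearMap.ker_zero, inf_top_eq, hfr]
  rcases Nat.lt_or_ge k (m + 1) with hk | hk
  · rw [Nat.min_eq_left hk.le]
    refine concave_seq_eq (fun k => finrank F (Z ⊓ LinearMap.ker (T ^ k) : Submodule F V)) m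
      ?_ (htop (m + 1) le_rfl) ?_ (Cfsg.Agent.Helper99.kerPow_concave T Z hZ) k hk.le
    · show finrank F (Z ⊓ LinearMap.ker (T ^ 0) : Submodule F V) = 0
      rw [pow_zero, Module.End.one_eq_id, LinearMap.ker_id, inf_bot_eq, finrank_bot]
    · show finrank F (Z ⊓ LinearMap.ker (T ^ m) : Submodule F V) ≤ m
      have hlt : Z ⊓ LinearMap.ker (T ^ m) < Z := by
        refine lt_of_le_of_ne inf_le_left (fun h => hv ?_)
        have : v ∈ Z ⊓ LinearMap.ker (T ^ m) := by rw [h]; exact hvZ
        exact LinearMap.mem_ker.mp this.2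
      have := Submodule.finrank_lt_finrank_of_lt hlt
      omega
  · rw [Nat.min_eq_right hk]
    exact htop k hk

theorem finrank_ker_restrict_pow [FiniteDimensional F V] (T : Module.End F V)
    (X : Submodule F V) (hX : ∀ x ∈ X, T x ∈ X) (k : ℕ) :
    finrank F (LinearMap.ker ((T.restrict hX) ^ k)) =
      finrank F (X ⊓ LinearMap.ker (T ^ k) : Submodule F V) := by
  have h : LinearMap.ker ((T.restrict hX) ^ k) =
      (X ⊓ LinearMap.ker (T ^ k)).comap X.subtype := by
    ext x
    rw [LinearMap.mem_ker, Module.End.pow_restrict, Submodule.mem_comap, Submodule.mem_inf,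
      LinearMap.mem_ker, Subtype.ext_iff]
    simp
  rw [h]
  exact (Submodule.comapSubtypeEquivOfLe inf_le_left).finrank_eq


theorem exists_nilpotency_index [Nontrivial V] (T : Module.End F V) (hT : IsNilpotent T) :
    ∃ m, T ^ (m + 1) = 0 ∧ ∃ v, (T ^ m) v ≠ 0 := by
  classical
  have hspec : T ^ (Nat.find hT) = 0 := Nat.find_spec hT
  have hne : Nat.find hT ≠ 0 := by
    intro h0
    rw [h0, pow_zero] at hspec
    obtain ⟨x, hx⟩ := exists_ne (0 : V)
    apply hx
    have := LinearMap.congr_fun hspec x
    simpa using this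
  obtain ⟨m, hm⟩ : ∃ m, Nat.find hT = m + 1 := ⟨Nat.find hT - 1, by omega⟩
  refine ⟨m, hm ▸ hspec, ?_⟩
  by_contra h
  push Not at h
  have h0 : T ^ m = 0 := LinearMap.ext h
  exact Nat.find_min hT (by omega : m < Nat.find hT) h0

theorem restrict_isNilpotent (T : Module.End F V) (X : Submodule F V)
    (hX : ∀ x ∈ X, T x ∈ X) (hT : IsNilpotent T) : IsNilpotent (T.restrict hX) := by
  obtain ⟨n, hn⟩ := hT
  refine ⟨n, ?_⟩
  rw [Module.End.pow_restrict]
  ext x
  simp [hn]

theorem cyclic_span_invariant (T : Module.End F V) (m : ℕ) (hm : T ^ (m + 1) = 0) (v : V) :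
    ∀ x ∈ Submodule.span F (Set.range (fun i : Fin (m + 1) => (T ^ i.val) v)),
      T x ∈ Submodule.span F (Set.range (fun i : Fin (m + 1) => (T ^ i.val) v)) := by
  intro x hx
  have hle : Submodule.span F (Set.range (fun i : Fin (m + 1) => (T ^ i.val) v)) ≤
      (Submodule.span F (Set.range (fun i : Fin (m + 1) => (T ^ i.val) v))).comap T := by
    rw [Submodule.span_le]
    rintro _ ⟨i, rfl⟩
    simp only [Submodule.comap_coe, Set.mem_preimage, SetLike.mem_coe]
    rw [← Module.End.mul_apply, ← pow_succ']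
    by_cases h : i.val + 1 < m + 1
    · exact Submodule.subset_span ⟨⟨i.val + 1, h⟩, rfl⟩
    · have h' : i.val + 1 = m + 1 := by have := i.isLt; omega
      rw [h', hm, LinearMap.zero_apply]
      exact zero_mem _
  exact hle hx

theorem exists_multiset_ker_pow.{u, w} {F : Type u} [Field F] (n : ℕ) :
    ∀ (V : Type w) [AddCommGroup V] [Module F V] [FiniteDimensional F V] (T : Module.End F V),
      IsNilpotent T → finrank F V = n →
      ∃ μ : Multiset ℕ, (∀ b ∈ μ, 0 < b) ∧ μ.sum = n ∧
        ∀ k, finrank F (LinearMap.ker (T ^ k)) = (μ.map (min k)).sum := by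
  induction n using Nat.strong_induction_on with
  | _ n IH =>
    intro V _ _ _ T hT hn
    rcases Nat.eq_zero_or_pos n with h0 | hpos
    · subst h0
      refine ⟨0, by simp, by simp, fun k => ?_⟩
      have := Submodule.finrank_le (LinearMap.ker (T ^ k))
      simp only [Multiset.map_zero, Multiset.sum_zero]
      omega
    · have : Nontrivial V := (Module.finrank_pos_iff (R := F)).mp (hn ▸ hpos)
      obtain ⟨m, hm, v, hv⟩ := exists_nilpotency_index T hT
      obtain ⟨W, hc, hW⟩ := exists_compl_cyclic T m hm v hv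
      have hli := cyclic_linearIndependent T m hm v hv
      have hfrZ : finrank F (Submodule.span F (Set.range (fun i : Fin (m + 1) => (T ^ i.val) v)))
          = m + 1 := by
        rw [finrank_span_eq_card hli, Fintype.card_fin]
      have hZ := cyclic_span_invariant T m hm v
      have hvZ : v ∈ Submodule.span F (Set.range (fun i : Fin (m + 1) => (T ^ i.val) v)) :=
        Submodule.subset_span ⟨0, by simp⟩
      have hsum := Submodule.finrank_add_eq_of_isCompl hc
      have hfrW : finrank F W = n - (m + 1) := by omega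
      obtain ⟨μ, hμpos, hμsum, hμk⟩ := IH (n - (m + 1)) (by omega) W (T.restrict hW)
        (restrict_isNilpotent T W hW hT) hfrW
      refine ⟨(m + 1) ::ₘ μ, ?_, ?_, fun k => ?_⟩
      · intro b hb
        rcases Multiset.mem_cons.mp hb with rfl | hb
        · omega
        · exact hμpos b hb
      · rw [Multiset.sum_cons, hμsum]
        omega
      · rw [Cfsg.Agent.Helper99.kerPow_add T _ W hc hZ hW k,
          finrank_inf_ker_pow_cyclic T m hm _ hZ hfrZ v hvZ hv k,
          ← finrank_ker_restrict_pow T W hW k, hμk k, Multiset.map_cons, Multiset.sum_cons]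

theorem restrict_span_basis (T : Module.End F V) (m : ℕ) (hm : T ^ (m + 1) = 0) (v : V)
    (hli : LinearIndependent F (fun i : Fin (m + 1) => (T ^ i.val) v))
    (hZ : ∀ x ∈ Submodule.span F (Set.range (fun i : Fin (m + 1) => (T ^ i.val) v)),
      T x ∈ Submodule.span F (Set.range (fun i : Fin (m + 1) => (T ^ i.val) v)))
    (i : Fin (m + 1)) :
    T.restrict hZ (Basis.span hli i) =
      if h : i.val + 1 < m + 1 then Basis.span hli ⟨i.val + 1, h⟩ else 0 := by
  apply Subtype.ext
  rw [LinearMap.coe_restrict_apply, Basis.span_apply]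
  show T ((T ^ i.val) v) = _
  rw [← Module.End.mul_apply, ← pow_succ']
  split_ifs with h
  · rw [Basis.span_apply]
  · have h' : i.val + 1 = m + 1 := by have := i.isLt; omega
    rw [h', hm, LinearMap.zero_apply]
    rfl

theorem exists_equiv_of_ker_pow.{u, w} {F : Type u} [Field F] (n : ℕ) :
    ∀ (V V' : Type w) [AddCommGroup V] [Module F V] [FiniteDimensional F V]
      [AddCommGroup V'] [Module F V'] [FiniteDimensional F V']
      (T : Module.End F V) (T' : Module.End F V'),
      IsNilpotent T → IsNilpotent T' → finrank F V = n →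
      (∀ k, finrank F (LinearMap.ker (T ^ k)) = finrank F (LinearMap.ker (T' ^ k))) →
      ∃ e : V ≃ₗ[F] V', ∀ x, e (T x) = T' (e x) := by
  induction n using Nat.strong_induction_on with
  | _ n IH =>
    intro V V' _ _ _ _ _ _ T T' hT hT' hn hker
    have hn' : finrank F V' = n := by
      obtain ⟨N, hN⟩ := hT
      obtain ⟨N', hN'⟩ := hT'
      have h1 : T ^ (N + N') = 0 := by rw [pow_add, hN, zero_mul]
      have h2 : T' ^ (N + N') = 0 := by rw [pow_add, hN', mul_zero]
      have := hker (N + N')
      rw [h1, h2, LinearMap.ker_zero, LinearMap.ker_zero, finrank_top, finrank_top] at this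
      omega
    rcases Nat.eq_zero_or_pos n with h0 | hpos
    · subst h0
      have : Subsingleton V' := (Module.finrank_zero_iff (R := F)).mp hn'
      exact ⟨LinearEquiv.ofFinrankEq V V' (by omega), fun x => Subsingleton.elim _ _⟩
    · have : Nontrivial V := (Module.finrank_pos_iff (R := F)).mp (hn ▸ hpos)
      obtain ⟨m, hm, v, hv⟩ := exists_nilpotency_index T hT
      have hm' : T' ^ (m + 1) = 0 := by
        have := hker (m + 1)
        rw [hm, LinearMap.ker_zero, finrank_top] at this
        exact LinearMap.ker_eq_top.mp (Submodule.eq_top_of_finrank_eq (by omega))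
      obtain ⟨v', hv'⟩ : ∃ v', (T' ^ m) v' ≠ 0 := by
        by_contra h
        push Not at h
        have h0 : T' ^ m = 0 := LinearMap.ext h
        have := hker m
        rw [h0, LinearMap.ker_zero, finrank_top] at this
        have h1 : LinearMap.ker (T ^ m) = ⊤ := Submodule.eq_top_of_finrank_eq (by omega)
        exact hv (LinearMap.congr_fun (LinearMap.ker_eq_top.mp h1) v)
      obtain ⟨W, hc, hW⟩ := exists_compl_cyclic T m hm v hv
      obtain ⟨W', hc', hW'⟩ := exists_compl_cyclic T' m hm' v' hv'
      have hli := cyclic_linearIndependent T m hm v hv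
      have hli' := cyclic_linearIndependent T' m hm' v' hv'
      have hfrZ : finrank F (Submodule.span F (Set.range (fun i : Fin (m + 1) => (T ^ i.val) v)))
          = m + 1 := by
        rw [finrank_span_eq_card hli, Fintype.card_fin]
      have hfrZ' : finrank F
          (Submodule.span F (Set.range (fun i : Fin (m + 1) => (T' ^ i.val) v'))) = m + 1 := by
        rw [finrank_span_eq_card hli', Fintype.card_fin]
      have hZ := cyclic_span_invariant T m hm v
      have hZ' := cyclic_span_invariant T' m hm' v'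
      have hvZ : v ∈ Submodule.span F (Set.range (fun i : Fin (m + 1) => (T ^ i.val) v)) :=
        Submodule.subset_span ⟨0, by simp⟩
      have hvZ' : v' ∈ Submodule.span F (Set.range (fun i : Fin (m + 1) => (T' ^ i.val) v')) :=
        Submodule.subset_span ⟨0, by simp⟩
      have hsum := Submodule.finrank_add_eq_of_isCompl hc
      have hfrW : finrank F W = n - (m + 1) := by omega
      have hkerW : ∀ k, finrank F (LinearMap.ker ((T.restrict hW) ^ k)) =
          finrank F (LinearMap.ker ((T'.restrict hW') ^ k)) := by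
        intro k
        have h1 := Cfsg.Agent.Helper99.kerPow_add T _ W hc hZ hW k
        have h2 := Cfsg.Agent.Helper99.kerPow_add T' _ W' hc' hZ' hW' k
        rw [finrank_inf_ker_pow_cyclic T m hm _ hZ hfrZ v hvZ hv k] at h1
        rw [finrank_inf_ker_pow_cyclic T' m hm' _ hZ' hfrZ' v' hvZ' hv' k] at h2
        rw [finrank_ker_restrict_pow T W hW k, finrank_ker_restrict_pow T' W' hW' k]
        have := hker k
        omega
      obtain ⟨eW, heW⟩ := IH (n - (m + 1)) (by omega) W W' (T.restrict hW) (T'.restrict hW')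
        (restrict_isNilpotent T W hW hT) (restrict_isNilpotent T' W' hW' hT') hfrW hkerW
      have heZ : ∀ z, (Basis.span hli).equiv (Basis.span hli') (Equiv.refl _) (T.restrict hZ z)
          = T'.restrict hZ' ((Basis.span hli).equiv (Basis.span hli') (Equiv.refl _) z) := by
        have hcomp : ((Basis.span hli).equiv (Basis.span hli') (Equiv.refl _)).toLinearMap ∘ₗ
            T.restrict hZ = T'.restrict hZ' ∘ₗ
            ((Basis.span hli).equiv (Basis.span hli') (Equiv.refl _)).toLinearMap := by
          refine (Basis.span hli).ext (fun i => ?_)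
          simp only [LinearMap.comp_apply, LinearEquiv.coe_coe, Basis.equiv_apply,
            Equiv.refl_apply]
          rw [restrict_span_basis T m hm v hli hZ i, restrict_span_basis T' m hm' v' hli' hZ' i]
          split_ifs with h
          · rw [Basis.equiv_apply, Equiv.refl_apply]
          · rw [map_zero]
        intro z
        exact LinearMap.congr_fun hcomp z
      let e : V ≃ₗ[F] V' := (Submodule.prodEquivOfIsCompl _ W hc).symm ≪≫ₗ
        (((Basis.span hli).equiv (Basis.span hli') (Equiv.refl _)).prodCongr eW) ≪≫ₗ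
        Submodule.prodEquivOfIsCompl _ W' hc'
      have he : ∀ (z : Submodule.span F (Set.range (fun i : Fin (m + 1) => (T ^ i.val) v)))
          (w : W), e ((z : V) + (w : V)) =
            (((Basis.span hli).equiv (Basis.span hli') (Equiv.refl _) z : _) : V') +
              ((eW w : W') : V') := by
        intro z w
        have h1 : (Submodule.prodEquivOfIsCompl _ W hc).symm ((z : V) + (w : V)) = (z, w) := by
          rw [LinearEquiv.symm_apply_eq, Submodule.coe_prodEquivOfIsCompl']
        show Submodule.prodEquivOfIsCompl _ W' hc'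
          ((((Basis.span hli).equiv (Basis.span hli') (Equiv.refl _)).prodCongr eW)
            ((Submodule.prodEquivOfIsCompl _ W hc).symm ((z : V) + (w : V)))) = _
        rw [h1, LinearEquiv.prodCongr_apply, Submodule.coe_prodEquivOfIsCompl']
      refine ⟨e, fun x => ?_⟩
      obtain ⟨z, w, rfl, -⟩ := Submodule.existsUnique_add_of_isCompl hc x
      have h1 : T (z : V) = ((T.restrict hZ z : _) : V) := rfl
      have h2 : T (w : V) = ((T.restrict hW w : W) : V) := rfl
      rw [map_add, h1, h2, he, he, heZ, heW, map_add]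
      rfl


theorem finrank_ker_pow_of_equiv {V' : Type*} [AddCommGroup V'] [Module F V']
    (A : Module.End F V) (B : Module.End F V') (e : V ≃ₗ[F] V') (h : ∀ x, e (A x) = B (e x))
    (k : ℕ) : finrank F (LinearMap.ker (A ^ k)) = finrank F (LinearMap.ker (B ^ k)) := by
  have hk : ∀ k x, e ((A ^ k) x) = (B ^ k) (e x) := by
    intro k
    induction k with
    | zero => intro x; simp
    | succ k ih =>
      intro x
      rw [pow_succ', Module.End.mul_apply, h, ih, pow_succ', Module.End.mul_apply]
  have hmap : (LinearMap.ker (A ^ k)).map e.toLinearMap = LinearMap.ker (B ^ k) := by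
    ext y
    constructor
    · rintro ⟨x, hx, rfl⟩
      have hx' : (A ^ k) x = 0 := LinearMap.mem_ker.mp hx
      rw [LinearMap.mem_ker]
      show (B ^ k) (e x) = 0
      rw [← hk, hx', map_zero]
    · intro hy
      have hy' : (B ^ k) y = 0 := LinearMap.mem_ker.mp hy
      refine ⟨e.symm y, ?_, by simp⟩
      rw [SetLike.mem_coe, LinearMap.mem_ker]
      apply e.injective
      rw [hk, map_zero, LinearEquiv.apply_symm_apply, hy']
  rw [← hmap]
  exact (LinearEquiv.finrank_map_eq e _).symm

/-- Kernel dimensions of the powers of a square matrix. -/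
noncomputable def kdim {n : ℕ} (N : Matrix (Fin n) (Fin n) F) (k : ℕ) : ℕ :=
  finrank F (LinearMap.ker ((Matrix.toLin' N) ^ k))

theorem kdim_eq_of_conj {n : ℕ} (N N' : Matrix (Fin n) (Fin n) F) (c : GL (Fin n) F)
    (h : (c : Matrix (Fin n) (Fin n) F) * N = N' * c) (k : ℕ) : kdim N k = kdim N' k := by
  let e : (Fin n → F) ≃ₗ[F] (Fin n → F) :=
    LinearEquiv.ofLinearMap (Matrix.toLin' (c : Matrix (Fin n) (Fin n) F))
      (Matrix.toLin' ((c⁻¹ : GL (Fin n) F) : Matrix (Fin n) (Fin n) F))
      (by rw [← Matrix.toLin'_mul]; simp) (by rw [← Matrix.toLin'_mul]; simp)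
  refine finrank_ker_pow_of_equiv _ _ e (fun x => ?_) k
  show Matrix.toLin' (c : Matrix (Fin n) (Fin n) F) (Matrix.toLin' N x) =
    Matrix.toLin' N' (Matrix.toLin' (c : Matrix (Fin n) (Fin n) F) x)
  rw [← LinearMap.comp_apply, ← Matrix.toLin'_mul, h, Matrix.toLin'_mul]
  rfl

theorem exists_conj_of_kdim {n : ℕ} (N N' : Matrix (Fin n) (Fin n) F) (hN : IsNilpotent N)
    (hN' : IsNilpotent N') (h : ∀ k, kdim N k = kdim N' k) :
    ∃ c : GL (Fin n) F, (c : Matrix (Fin n) (Fin n) F) * N = N' * c := by
  obtain ⟨e, he⟩ := exists_equiv_of_ker_pow n (Fin n → F) (Fin n → F) (Matrix.toLin' N)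
    (Matrix.toLin' N') ((Matrix.isNilpotent_toLin'_iff N).mpr hN)
    ((Matrix.isNilpotent_toLin'_iff N').mpr hN') (by simp) h
  refine ⟨⟨LinearMap.toMatrix' e.toLinearMap, LinearMap.toMatrix' e.symm.toLinearMap, ?_, ?_⟩, ?_⟩
  · rw [← LinearMap.toMatrix'_comp]
    simp
  · rw [← LinearMap.toMatrix'_comp]
    simp
  · show LinearMap.toMatrix' e.toLinearMap * N = N' * LinearMap.toMatrix' e.toLinearMap
    apply Matrix.toLin'.injective
    rw [Matrix.toLin'_mul, Matrix.toLin'_mul, Matrix.toLin'_toMatrix']
    exact LinearMap.ext (fun x => he x)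

theorem exists_multiset_kdim {n : ℕ} (N : Matrix (Fin n) (Fin n) F) (hN : IsNilpotent N) :
    ∃ μ : Multiset ℕ, (∀ b ∈ μ, 0 < b) ∧ μ.sum = n ∧ ∀ k, kdim N k = (μ.map (min k)).sum :=
  exists_multiset_ker_pow n (Fin n → F) (Matrix.toLin' N)
    ((Matrix.isNilpotent_toLin'_iff N).mpr hN) (by simp)

theorem pow_eq_zero_iff_kdim {n : ℕ} (N : Matrix (Fin n) (Fin n) F) (k : ℕ) :
    N ^ k = 0 ↔ kdim N k = n := by
  unfold kdim
  constructor
  · intro h
    rw [← Matrix.toLin'_pow, h, map_zero, LinearMap.ker_zero, finrank_top, Module.finrank_fin_fun]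
  · intro h
    have h1 : LinearMap.ker ((Matrix.toLin' N) ^ k) = ⊤ :=
      Submodule.eq_top_of_finrank_eq (by rw [h, Module.finrank_fin_fun])
    have h2 := LinearMap.ker_eq_top.mp h1
    rw [← Matrix.toLin'_pow] at h2
    exact Matrix.toLin'.injective (by rw [h2, map_zero])

theorem exists_nilpotent_of_multiset (n : ℕ) (μ : Multiset ℕ) (hsum : μ.sum = n) :
    ∃ M : Matrix (Fin n) (Fin n) F, IsNilpotent M ∧ ∀ k, kdim M k = (μ.map (min k)).sum := by
  classical
  let L : μ.ToType → ℕ := fun x => (x : ℕ)
  have hL : ∑ i, L i = n := by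
    show (Finset.univ.val.map (fun x : μ.ToType => (x : ℕ))).sum = n
    rw [Multiset.map_univ_coe, hsum]
  let e : (Σ i : μ.ToType, Fin (L i)) ≃ Fin n := Fintype.equivFinOfCardEq (by simp [hL])
  let ψ : ((Σ i : μ.ToType, Fin (L i)) → F) ≃ₗ[F] (Fin n → F) :=
    LinearEquiv.funCongrLeft F F e.symm
  let NV : Module.End F (Fin n → F) := ψ.conjAlgEquiv F (Cfsg.Agent.Helper99.shiftMap L)
  have hM : Matrix.toLin' (LinearMap.toMatrix' NV) = NV := Matrix.toLin'_toMatrix' NV
  have hNVpow : ∀ k, NV ^ k = ψ.conjAlgEquiv F ((Cfsg.Agent.Helper99.shiftMap L) ^ k) :=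
    fun k => (map_pow _ _ k).symm
  refine ⟨LinearMap.toMatrix' NV, ?_, fun k => ?_⟩
  · rw [← Matrix.isNilpotent_toLin'_iff, hM]
    refine ⟨n, ?_⟩
    rw [hNVpow, Cfsg.Agent.Helper99.shiftMap_pow_eq_zero L n (fun i => ?_), map_zero]
    rw [← hL]
    exact Finset.single_le_sum (f := L) (fun _ _ => Nat.zero_le _) (Finset.mem_univ i)
  · show finrank F (LinearMap.ker ((Matrix.toLin' (LinearMap.toMatrix' NV)) ^ k)) = _
    rw [hM, ← finrank_ker_pow_of_equiv (Cfsg.Agent.Helper99.shiftMap (F := F) L) NV ψ
      (fun x => by simp [NV, LinearEquiv.conjAlgEquiv_apply]) k,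
      Cfsg.Agent.Helper99.shiftMap_finrank_ker_pow, ← Multiset.map_univ_comp_coe μ (min k)]
    rfl

end JordanNil

theorem minsum_le (μ : Multiset ℕ) (k : ℕ) : (μ.map (min k)).sum ≤ μ.sum := by
  induction μ using Multiset.induction_on with
  | empty => simp
  | cons b μ ih =>
    simp only [Multiset.map_cons, Multiset.sum_cons]
    omega

theorem minsum_eq_sum_iff (μ : Multiset ℕ) (k : ℕ) :
    (μ.map (min k)).sum = μ.sum ↔ ∀ b ∈ μ, b ≤ k := by
  induction μ using Multiset.induction_on with
  | empty => simp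
  | cons b μ ih =>
    have hle := minsum_le μ k
    simp only [Multiset.map_cons, Multiset.sum_cons, Multiset.mem_cons, forall_eq_or_imp]
    rw [← ih]
    constructor <;> intro h <;> omega

theorem multiset_eq_of_minsum (μ ν : Multiset ℕ) (hμ : ∀ b ∈ μ, 0 < b) (hν : ∀ b ∈ ν, 0 < b)
    (h : ∀ k, (μ.map (min k)).sum = (ν.map (min k)).sum) : μ = ν := by
  ext a
  rcases Nat.eq_zero_or_pos a with rfl | ha
  · rw [Multiset.count_eq_zero_of_notMem (fun h0 => absurd (hμ 0 h0) (lt_irrefl 0)),
      Multiset.count_eq_zero_of_notMem (fun h0 => absurd (hν 0 h0) (lt_irrefl 0))]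
  · obtain ⟨k, rfl⟩ : ∃ k, a = k + 1 := ⟨a - 1, by omega⟩
    have h1 := Cfsg.Agent.Helper99.minsum_count μ k
    have h2 := Cfsg.Agent.Helper99.minsum_count ν k
    have h3 := h k
    have h4 := h (k + 1)
    have h5 := h (k + 2)
    omega

theorem card_eq_of_rel {X Y : Type*} (R : X → Y → Prop) (h1 : ∀ x, ∃ y, R x y)
    (h2 : ∀ y, ∃ x, R x y) (h3 : ∀ x y y', R x y → R x y' → y = y')
    (h4 : ∀ x x' y, R x y → R x' y → x = x') : Nat.card X = Nat.card Y := by
  classical
  refine Nat.card_congr (Equiv.ofBijective (fun x => Classical.choose (h1 x)) ⟨?_, ?_⟩)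
  · intro x x' h
    have hx := Classical.choose_spec (h1 x)
    have hx' := Classical.choose_spec (h1 x')
    simp only at h
    rw [h] at hx
    exact h4 x x' _ hx hx'
  · intro y
    obtain ⟨x, hx⟩ := h2 y
    exact ⟨x, h3 x _ _ (Classical.choose_spec (h1 x)) hx⟩

section Unip

variable {F : Type*} [Field F]

theorem sub_one_pow_char_pow (p : ℕ) [Fact p.Prime] [CharP F p] {n : ℕ}
    (M : Matrix (Fin n) (Fin n) F) (k : ℕ) : (M - 1) ^ (p ^ k) = M ^ (p ^ k) - 1 := by
  rcases Nat.eq_zero_or_pos n with hn | hn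
  · subst hn
    exact Subsingleton.elim _ _
  · have : Nonempty (Fin n) := ⟨⟨0, hn⟩⟩
    have := sub_pow_char_pow_of_commute (p := p) (n := k) (Commute.one_right M)
    simpa using this

theorem exists_orderOf_eq_prime_pow_iff (p : ℕ) [Fact p.Prime] [CharP F p] {n : ℕ}
    (g : GL (Fin n) F) :
    (∃ k : ℕ, orderOf g = p ^ k) ↔ IsNilpotent ((g : Matrix (Fin n) (Fin n) F) - 1) := by
  have hp : p.Prime := Fact.out
  constructor
  · rintro ⟨k, hk⟩
    refine ⟨p ^ k, ?_⟩
    rw [sub_one_pow_char_pow, ← Units.val_pow_eq_pow_val, ← hk, pow_orderOf_eq_one, Units.val_one,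
      sub_self]
  · rintro ⟨m, hm⟩
    have hpow : g ^ (p ^ m) = 1 := by
      apply Units.ext
      rw [Units.val_pow_eq_pow_val, Units.val_one]
      have h1 := sub_one_pow_char_pow p (g : Matrix (Fin n) (Fin n) F) m
      have h2 : ((g : Matrix (Fin n) (Fin n) F) - 1) ^ (p ^ m) = 0 := by
        obtain ⟨c, hc⟩ := Nat.exists_eq_add_of_le (Nat.lt_pow_self hp.one_lt (n := m)).le
        rw [hc, pow_add, hm, zero_mul]
      rw [h2] at h1
      exact sub_eq_zero.mp h1.symm
    obtain ⟨j, -, hj⟩ := (Nat.dvd_prime_pow hp).mp (orderOf_dvd_of_pow_eq_one hpow)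
    exact ⟨j, hj⟩

end Unip


end Cfsg.Agent.Helper38
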