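/-
helper38: for S4279 (CALL of helper18) - the Bruhat normal form of an element centralising a torus element:
every factor is centralised (no regularity assumption; first half of Helper18.cent_torus_of_stab).
-/
import Cfsg.Agent.Helper18.D4Tor2

set_option autoImplicit false

namespace Cfsg.Agent.Helper38.G2C

open Cfsg Cfsg.Lie Cfsg.Agent.Helper36 Cfsg.Agent.Helper17 Cfsg.Agent.Helper18

section

variable {D : ChevalleyDatum} {F : Type*} [Field F] {η : ℕ → ℕ → ℤ}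

/-- If `g` centralises the torus element `h`, then `g = u₁ h₁ n_w u` (normal form, `w` reduced) where `u₁ ∈ U`,
`u ∈ U_w⁻` and `n_w` all commute with `h`. -/
theorem g2c_cent_bruhat (hD : D ∈ [chevG2, chevB2, chevD4, chevF4, chevE6, chevE7, chevE8])
    (R : BRel D F η) {h : GL D.Idx F} (hh : h ∈ D.diagonalSubgroup F)
    {g : GL D.Idx F} (hg : g ∈ D.group F) (hc : h * g * h⁻¹ = g) :
    ∃ u₁ ∈ D.posUnipotent F, ∃ h₁ ∈ D.diagonalSubgroup F, ∃ L, ValidW D L ∧ RedW D L ∧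
      ∃ u ∈ Subgroup.closure (umGens R.xadd L), g = u₁ * h₁ * R.nW L * u ∧
        h * u₁ * h⁻¹ = u₁ ∧ h * R.nW L = R.nW L * h ∧ h * u * h⁻¹ = u := by
  have hH : D.diagonalSubgroup F = torus D F :=
    diagonalSubgroup_eq_torus (simpleOK_of_mem hD) (hDiag_of_mem hD) (rootElts_of_mem hD)
  obtain ⟨b, hb, L, hL, hred, u, hu, rfl⟩ := exists_normal_form_red R g hg
  have hu' : h * u * h⁻¹ ∈ Subgroup.closure (umGens R.xadd L) := R.conj_umGens L h hh u hu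
  have hh3 : h * (R.nW L * h⁻¹ * (R.nW L)⁻¹) ∈ D.diagonalSubgroup F :=
    mul_mem hh (R.nW_conj_H hL _ (inv_mem hh))
  have hn := R.nW_mem_monomial hL
  have hsub := Subgroup.closure_mono (R.umGens_subset (F := F) hL)
  have e : b * R.nW L * u =
      (h * b * h⁻¹ * (h * (R.nW L * h⁻¹ * (R.nW L)⁻¹))) * R.nW L * (h * u * h⁻¹) := by
    conv_lhs => rw [← hc]
    group
  have hb' : h * b * h⁻¹ * (h * (R.nW L * h⁻¹ * (R.nW L)⁻¹)) ∈ D.borelSubgroup F :=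
    mul_mem (mul_mem (mul_mem (BRel.H_le_B D F hh) hb) (inv_mem (BRel.H_le_B D F hh)))
      (BRel.H_le_B D F hh3)
  obtain ⟨hbb, huu⟩ := (R.normal_form_unique hb hb' hn hn (hsub hu) (hsub hu') e).2 rfl
  have hbm : b ∈ ((D.posUnipotent F ⊔ D.diagonalSubgroup F : Subgroup (GL D.Idx F)) :
      Set (GL D.Idx F)) := hb
  rw [Subgroup.coe_mul_of_right_le_normalizer_left _ _ R.hU] at hbm
  obtain ⟨u₁, hu₁', h₁, hh₁', hbe⟩ := hbm
  have hu₁ : u₁ ∈ D.posUnipotent F := hu₁'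
  have hh₁ : h₁ ∈ D.diagonalSubgroup F := hh₁'
  have hbe' : b = u₁ * h₁ := hbe.symm
  subst hbe'
  have hcu : h * u₁ * h⁻¹ ∈ D.posUnipotent F :=
    (Subgroup.mem_normalizer_iff.mp (R.hU hh) u₁).mp hu₁
  have hcomm : h * h₁ = h₁ * h := torus_comm (hH ▸ hh) (hH ▸ hh₁)
  have hx : u₁⁻¹ * (h * u₁ * h⁻¹) =
      h₁ * (h₁ * (h * (R.nW L * h⁻¹ * (R.nW L)⁻¹)))⁻¹ := by
    have e2 : h * (u₁ * h₁) * h⁻¹ * (h * (R.nW L * h⁻¹ * (R.nW L)⁻¹)) =
        (h * u₁ * h⁻¹) * (h₁ * (h * (R.nW L * h⁻¹ * (R.nW L)⁻¹))) := by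
      have : h * (u₁ * h₁) * h⁻¹ = (h * u₁ * h⁻¹) * (h * h₁ * h⁻¹) := by group
      rw [this, hcomm, mul_assoc h₁ h h⁻¹, mul_inv_cancel, mul_one, mul_assoc]
    rw [e2] at hbb
    have e3 : h * u₁ * h⁻¹ = u₁ * h₁ * (h₁ * (h * (R.nW L * h⁻¹ * (R.nW L)⁻¹)))⁻¹ := by
      rw [hbb]; group
    rw [e3]; group
  have hmem : u₁⁻¹ * (h * u₁ * h⁻¹) ∈ D.posUnipotent F ⊓ D.diagonalSubgroup F :=
    Subgroup.mem_inf.mpr ⟨mul_mem (inv_mem hu₁) hcu, by
      rw [hx]; exact mul_mem hh₁ (inv_mem (mul_mem hh₁ hh3))⟩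
  rw [R.uh, Subgroup.mem_bot] at hmem
  have hcu1 : h * u₁ * h⁻¹ = u₁ := by
    rw [inv_mul_eq_one] at hmem
    exact hmem.symm
  have hnh : h * (R.nW L * h⁻¹ * (R.nW L)⁻¹) = 1 := by
    rw [hmem] at hx
    have h5 : h₁ * (h * (R.nW L * h⁻¹ * (R.nW L)⁻¹)) = h₁ := by
      have h6 := hx.symm
      rw [mul_inv_eq_one] at h6
      exact h6.symm
    exact mul_left_cancel (a := h₁) (by rw [h5, mul_one])
  have hnh' : h * R.nW L = R.nW L * h := by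
    have : h * (R.nW L * h⁻¹ * (R.nW L)⁻¹) * (R.nW L * h) = h * R.nW L := by group
    rw [← this, hnh, one_mul]
  exact ⟨u₁, hu₁, h₁, hh₁, L, hL, hred, u, hu, rfl, hcu1, hnh', huu.symm⟩

end

end Cfsg.Agent.Helper38.G2C
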