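/-
helper38: for S4279 (CALL of helper18) - the centraliser in `U` of a torus element (general), and for the
involution `t0 = n_b²` of `G₂`, `2 ≠ 0`: `C_U(t0) = X_6 X_9`; the reduced words `L` with `n_L` commuting with
`t0`.
-/
import Cfsg.Agent.Helper18.G2OddTor
import Cfsg.Agent.Helper4.G2OWL
import Cfsg.Agent.Helper38.ChevCentG2

set_option autoImplicit false

namespace Cfsg.Agent.Helper38.G2C

open Cfsg Cfsg.Lie Cfsg.Agent.Helper36 Cfsg.Agent.Helper17 Cfsg.Agent.Helper18 Cfsg.Agent.Helper18.G2O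

section

variable {D : ChevalleyDatum} {F : Type*} [Field F] {η : ℕ → ℕ → ℤ}

/-- The coefficients of an element of `U` centralised by a torus element vanish at the roots where the character
is not `1`. -/
theorem g2c_cent_unip (hD : D ∈ [chevG2, chevB2, chevD4, chevF4, chevE6, chevE7, chevE8])
    {h : GL D.Idx F} {z : ℕ → Fˣ} (hz : (h : Matrix D.Idx D.Idx F) = D.charDiag F (torusChar D z))
    {u : GL D.Idx F} (hu : u ∈ D.posUnipotent F) (hc : h * u * h⁻¹ = u) :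
    ∃ t : ℕ → F, (∀ r, ¬ D.IsPosRoot r → t r = 0) ∧ (∀ r, torusChar D z r ≠ 1 → t r = 0) ∧
      (u : Matrix D.Idx D.Idx F) = D.wordMat F (D.posRoots.map fun r => (r, t r)) := by
  have hU := (posUnipotent_unique_product_of_mem (F := F) hD
    (fun r s hr hs h1 h2 => CF_of_mem hD r hr s hs h1 h2)).1
  obtain ⟨t, ⟨ht0, ht⟩, huniq⟩ := hU u hu
  have h1 := torus_conj_wordMat (chainOK_of_mem D hD) (cartanFacts_of_mem hD) hz
    (D.posRoots.map fun r => (r, t r)) (by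
      intro p hp
      obtain ⟨r, hr, rfl⟩ := List.mem_map.mp hp
      exact (mem_posRoots.mp hr).1)
  rw [← ht, ← Units.val_mul, ← Units.val_mul, hc, List.map_map] at h1
  have h2 : (fun r => (torusChar D z r : F) * t r) = t :=
    huniq _ ⟨fun r hr => by show (torusChar D z r : F) * t r = 0; rw [ht0 r hr, mul_zero], h1⟩
  refine ⟨t, ht0, ?_, ht⟩
  intro r hne
  have h4 := congrFun h2 r
  have h5 : ((torusChar D z r : F) - 1) * t r = 0 := by
    have h6 : (torusChar D z r : F) * t r = t r := h4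
    rw [sub_mul, one_mul, h6, sub_self]
  rcases mul_eq_zero.mp h5 with h6 | h6
  · exfalso
    apply hne
    apply Units.ext
    rw [Units.val_one]
    exact sub_eq_zero.mp h6
  · exact h6

theorem g2c_neg_one_ne (h2 : (2 : F) ≠ 0) : (-1 : Fˣ) ≠ 1 := by
  intro h
  have h3 := congrArg (fun x : Fˣ => (x : F)) h
  simp only [Units.val_neg, Units.val_one] at h3
  exact h2 (by linear_combination -h3)

/-- The character of `t0 = n_b²` is `-1` at the positive roots `7, 8, 10, 11`. -/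
theorem g2c_t0_char (h2 : (2 : F) ≠ 0) {r : ℕ} (hr : r ∈ [7, 8, 10, 11]) :
    torusChar chevG2 (zf (1 : Fˣ) (-1)) r ≠ 1 := by
  have e : torusChar chevG2 (zf (1 : Fˣ) (-1)) r = -1 := by
    rw [tcz]
    simp only [List.mem_cons, List.not_mem_nil, or_false] at hr
    have h7 := g2_cartan_tab 7 (by decide)
    have h8 := g2_cartan_tab 8 (by decide)
    have h10 := g2_cartan_tab 10 (by decide)
    have h11 := g2_cartan_tab 11 (by decide)
    simp only [List.getD_cons_succ, List.getD_cons_zero, Prod.mk.injEq] at h7 h8 h10 h11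
    rcases hr with rfl | rfl | rfl | rfl
    · rw [h7.2, one_zpow, one_mul]; norm_num
    · rw [h8.2, one_zpow, one_mul]; norm_num
    · rw [h10.2, one_zpow, one_mul]; norm_num
    · rw [h11.2, one_zpow, one_mul]; norm_num
  rw [e]
  exact g2c_neg_one_ne h2

/-- `C_U(t0) = X_6 X_9` for the involution `t0 = n_b²` of `G₂`, `2 ≠ 0`. -/
theorem g2c_cent_U (h2 : (2 : F) ≠ 0) {u : GL chevG2.Idx F} (hu : u ∈ chevG2.posUnipotent F)
    (hc : t0 F * u * (t0 F)⁻¹ = u) :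
    ∃ s t : F, u = xGL (g2B F).xadd 6 s * xGL (g2B F).xadd 9 t := by
  obtain ⟨t, -, ht1, ht⟩ := g2c_cent_unip g2_mem (isTor_n1_sq (F := F)) hu hc
  rw [chPosRoots_G2] at ht
  have h7 := ht1 7 (g2c_t0_char h2 (by simp))
  have h8 := ht1 8 (g2c_t0_char h2 (by simp))
  have h10 := ht1 10 (g2c_t0_char h2 (by simp))
  have h11 := ht1 11 (g2c_t0_char h2 (by simp))
  refine ⟨t 6, t 9, Units.ext ?_⟩
  rw [ht, ← wordGL_val (g2B F).xadd]
  simp only [List.map_cons, List.map_nil, wordGL_cons, wordGL_nil, h7, h8, h10, h11, xGL_zero, one_mul,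
    mul_one]

theorem g2c_neg_one_zpow_eq (h2 : (2 : F) ≠ 0) {a b : ℤ} (h : ((-1 : Fˣ)) ^ a = (-1 : Fˣ) ^ b) :
    a % 2 = b % 2 := by
  have hne := g2c_neg_one_ne h2
  rcases Int.even_or_odd a with ha | ha <;> rcases Int.even_or_odd b with hb | hb
  · rw [Int.even_iff.mp ha, Int.even_iff.mp hb]
  · exfalso
    rw [ha.neg_one_zpow, hb.neg_one_zpow] at h
    exact hne h.symm
  · exfalso
    rw [ha.neg_one_zpow, hb.neg_one_zpow] at h
    exact hne h
  · rw [Int.odd_iff.mp ha, Int.odd_iff.mp hb]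

/-- If `n_L` commutes with `t0` then `w_L` preserves the parity of the pairing with the coroot of `b`. -/
theorem g2c_word_parity (h2 : (2 : F) ≠ 0) {L : List ℕ} (hL : ValidW chevG2 L)
    (hc : t0 F * (g2B F).nW L = (g2B F).nW L * t0 F) :
    ∀ s < 12, chevG2.cartan 1 (wW chevG2 L s) % 2 = chevG2.cartan 1 s % 2 := by
  intro s hs
  have hn : chevG2.nroots = 12 := g2_simple.2.2.2
  have hs' : s < chevG2.nroots := hn.symm ▸ hs
  have hws' : wW chevG2 L s < chevG2.nroots := (g2B F).wf.wW_lt hL hs'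
  have hws : wW chevG2 L s < 12 := hn ▸ hws'
  have hT := isTor_n1_sq (F := F)
  have h1 := (g2B F).nW_conj_x hL hs' (1 : F)
  have e2 : t0 F * ((g2B F).nW L * xGL (g2B F).xadd s 1 * ((g2B F).nW L)⁻¹) * (t0 F)⁻¹ =
      (g2B F).nW L * (t0 F * xGL (g2B F).xadd s 1 * (t0 F)⁻¹) * ((g2B F).nW L)⁻¹ := by
    have e3 : t0 F * ((g2B F).nW L * xGL (g2B F).xadd s 1 * ((g2B F).nW L)⁻¹) * (t0 F)⁻¹ =
        (t0 F * (g2B F).nW L) * xGL (g2B F).xadd s 1 * (t0 F * (g2B F).nW L)⁻¹ := by group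
    rw [e3, hc]
    group
  have c1 : t0 F * xGL (g2B F).xadd s 1 * (t0 F)⁻¹ = _ := hT.conj_x hs 1
  have c2 : ∀ t : F, t0 F * xGL (g2B F).xadd (wW chevG2 L s) t * (t0 F)⁻¹ = _ := fun t => hT.conj_x hws t
  rw [h1, c2, c1, (g2B F).nW_conj_x hL hs'] at e2
  have h3 := congrArg (fun x : GL chevG2.Idx F => (x : Matrix chevG2.Idx chevG2.Idx F)) e2
  simp only [xGL_val] at h3
  have h4 := x_inj_of_bRel (g2B F) hws' h3
  have h6 : ((eW chevG2 (etaN chevG2) L s : ℤ) : F) ≠ 0 := (g2B F).eW_ne_zero hL hs'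
  have h5 : (((1 : Fˣ) ^ chevG2.cartan 0 (wW chevG2 L s) * (-1 : Fˣ) ^ chevG2.cartan 1 (wW chevG2 L s) : Fˣ) : F) =
      (((1 : Fˣ) ^ chevG2.cartan 0 s * (-1 : Fˣ) ^ chevG2.cartan 1 s : Fˣ) : F) := by
    rw [mul_one, mul_one, mul_comm] at h4
    exact mul_left_cancel₀ h6 h4
  have h7 := Units.ext h5
  rw [one_zpow, one_zpow, one_mul, one_mul] at h7
  exact g2c_neg_one_zpow_eq h2 h7

theorem g2c_words13 : ∀ L ∈ ([[], [0], [1], [0, 1], [1, 0], [0, 1, 0], [1, 0, 1], [0, 1, 0, 1],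
      [1, 0, 1, 0], [0, 1, 0, 1, 0], [1, 0, 1, 0, 1], [0, 1, 0, 1, 0, 1], [1, 0, 1, 0, 1, 0]] :
      List (List ℕ)),
    (∀ s < 12, chevG2.cartan 1 (wW chevG2 L s) % 2 = chevG2.cartan 1 s % 2) →
      L ∈ ([[], [1], [0, 1, 0, 1, 0], [0, 1, 0, 1, 0, 1], [1, 0, 1, 0, 1, 0]] : List (List ℕ)) := by
  decide +kernel

/-- The reduced words `L` of `G₂` with `n_L` commuting with `t0`. -/
theorem g2c_words (h2 : (2 : F) ≠ 0) {L : List ℕ} (hL : ValidW chevG2 L) (hred : RedW chevG2 L)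
    (hc : t0 F * (g2B F).nW L = (g2B F).nW L * t0 F) :
    L ∈ ([[], [1], [0, 1, 0, 1, 0], [0, 1, 0, 1, 0, 1], [1, 0, 1, 0, 1, 0]] : List (List ℕ)) :=
  g2c_words13 L (Cfsg.Agent.Helper4.G2O.g2o_red_mem L hL hred) (g2c_word_parity h2 hL hc)

end

end Cfsg.Agent.Helper38.G2C
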