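import Mathlib
import Cfsg.Agent.Helper38.SLTrans
import Cfsg.Agent.Helper5.SLGen

set_option autoImplicit false
set_option linter.unusedSectionVars false
set_option linter.unusedSimpArgs false
set_option linter.unusedVariables false
set_option linter.style.haveILetI false

/-!
Helper library (helper38): rank-one calculus for transvections `1 + v ⊗ φ` and the products of
two transvections in characteristic `2`.
-/

namespace Cfsg.Agent.Helper38

open Matrix

section RankOne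

variable {ι : Type*} [Fintype ι] [DecidableEq ι] {F : Type*} [Field F]

/-- The matrix is a transvection `1 + v ⊗ φ` with `φ v = 0`, `v ≠ 0`, `φ ≠ 0`. -/
def IsTv (t : Matrix ι ι F) : Prop :=
  ∃ v φ : ι → F, v ≠ 0 ∧ φ ≠ 0 ∧ φ ⬝ᵥ v = 0 ∧ t = 1 + Matrix.vecMulVec v φ

theorem vmv_mul (u v w x : ι → F) :
    Matrix.vecMulVec u v * Matrix.vecMulVec w x = (v ⬝ᵥ w) • Matrix.vecMulVec u x := by
  rw [Matrix.vecMulVec_mul_vecMulVec, Matrix.vecMulVec_smul]

theorem vmv_mulVec (u v w : ι → F) :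
    Matrix.vecMulVec u v *ᵥ w = (v ⬝ᵥ w) • u := by
  rw [Matrix.vecMulVec_mulVec]
  ext i
  simp [mul_comm]

theorem vmv_ne_zero {v φ : ι → F} (hv : v ≠ 0) (hφ : φ ≠ 0) : Matrix.vecMulVec v φ ≠ 0 := by
  obtain ⟨i, hi⟩ := Function.ne_iff.1 hv
  obtain ⟨j, hj⟩ := Function.ne_iff.1 hφ
  intro h
  have := congrFun (congrFun h i) j
  rw [Matrix.vecMulVec_apply] at this
  exact mul_ne_zero hi hj this

/-- The general element of the algebra spanned by two transvections. -/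
def tvE (v φ w ψ : ι → F) (x₁ x₂ x₃ x₄ : F) : Matrix ι ι F :=
  1 + x₁ • Matrix.vecMulVec v φ + x₂ • Matrix.vecMulVec w ψ + x₃ • Matrix.vecMulVec v ψ +
    x₄ • Matrix.vecMulVec w φ

theorem tvE_zero (v φ w ψ : ι → F) : tvE v φ w ψ 0 0 0 0 = 1 := by
  simp [tvE]

theorem tvE_mulA {v φ w ψ : ι → F} (hφv : φ ⬝ᵥ v = 0) (x₁ x₂ x₃ x₄ : F) :
    (1 + Matrix.vecMulVec v φ) * tvE v φ w ψ x₁ x₂ x₃ x₄ =
      tvE v φ w ψ (x₁ + 1 + (φ ⬝ᵥ w) * x₄) x₂ (x₃ + (φ ⬝ᵥ w) * x₂) x₄ := by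
  unfold tvE
  simp only [add_mul, mul_add, one_mul, mul_one, Matrix.mul_smul, vmv_mul, hφv, zero_smul,
    smul_zero, add_zero, smul_smul]
  ext i j
  simp only [Matrix.add_apply, Matrix.smul_apply, smul_eq_mul, Matrix.one_apply]
  ring

theorem tvE_mulB {v φ w ψ : ι → F} (hψw : ψ ⬝ᵥ w = 0) (x₁ x₂ x₃ x₄ : F) :
    (1 + Matrix.vecMulVec w ψ) * tvE v φ w ψ x₁ x₂ x₃ x₄ =
      tvE v φ w ψ x₁ (x₂ + 1 + (ψ ⬝ᵥ v) * x₃) x₃ (x₄ + (ψ ⬝ᵥ v) * x₁) := by
  unfold tvE
  simp only [add_mul, mul_add, one_mul, mul_one, Matrix.mul_smul, vmv_mul, hψw, zero_smul,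
    smul_zero, add_zero, smul_smul]
  ext i j
  simp only [Matrix.add_apply, Matrix.smul_apply, smul_eq_mul, Matrix.one_apply]
  ring

theorem tvE_mulVec_v {v φ w ψ : ι → F} (hφv : φ ⬝ᵥ v = 0) (x₁ x₂ x₃ x₄ : F) :
    tvE v φ w ψ x₁ x₂ x₃ x₄ *ᵥ v = (1 + x₃ * (ψ ⬝ᵥ v)) • v + (x₂ * (ψ ⬝ᵥ v)) • w := by
  unfold tvE
  simp only [Matrix.add_mulVec, Matrix.one_mulVec, Matrix.smul_mulVec, vmv_mulVec, hφv,
    zero_smul, smul_zero, add_zero, smul_smul]
  ext i
  simp only [Pi.add_apply, Pi.smul_apply, smul_eq_mul]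
  ring

theorem tvE_mulVec_w {v φ w ψ : ι → F} (hψw : ψ ⬝ᵥ w = 0) (x₁ x₂ x₃ x₄ : F) :
    tvE v φ w ψ x₁ x₂ x₃ x₄ *ᵥ w = (x₁ * (φ ⬝ᵥ w)) • v + (1 + x₄ * (φ ⬝ᵥ w)) • w := by
  unfold tvE
  simp only [Matrix.add_mulVec, Matrix.one_mulVec, Matrix.smul_mulVec, vmv_mulVec, hψw,
    zero_smul, smul_zero, add_zero, smul_smul]
  ext i
  simp only [Pi.add_apply, Pi.smul_apply, smul_eq_mul]
  ring

theorem tvE_pow {v φ w ψ : ι → F} (hφv : φ ⬝ᵥ v = 0) (hψw : ψ ⬝ᵥ w = 0) (k : ℕ) :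
    ∃ x₁ x₂ x₃ x₄ : F,
      ((1 + Matrix.vecMulVec v φ) * (1 + Matrix.vecMulVec w ψ)) ^ k = tvE v φ w ψ x₁ x₂ x₃ x₄ := by
  induction k with
  | zero => exact ⟨0, 0, 0, 0, by rw [pow_zero, tvE_zero]⟩
  | succ k ih =>
    obtain ⟨x₁, x₂, x₃, x₄, h⟩ := ih
    refine ⟨?x1, ?x2, ?x3, ?x4, ?h⟩
    case h => rw [pow_succ', h, mul_assoc, tvE_mulB hψw, tvE_mulA hφv]

/-- The square of the product of two transvections in characteristic `2`. -/
theorem tv_sq {v φ w ψ : ι → F} (hφv : φ ⬝ᵥ v = 0) (hψw : ψ ⬝ᵥ w = 0) (h2 : (2 : F) = 0) :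
    ((1 + Matrix.vecMulVec v φ) * (1 + Matrix.vecMulVec w ψ)) ^ 2 =
      tvE v φ w ψ ((φ ⬝ᵥ w) * (ψ ⬝ᵥ v)) ((φ ⬝ᵥ w) * (ψ ⬝ᵥ v))
        ((φ ⬝ᵥ w) + (φ ⬝ᵥ w) ^ 2 * (ψ ⬝ᵥ v)) (ψ ⬝ᵥ v) := by
  have h1 : ((1 + Matrix.vecMulVec v φ) * (1 + Matrix.vecMulVec w ψ)) ^ 2 =
      (1 + Matrix.vecMulVec v φ) * ((1 + Matrix.vecMulVec w ψ) *
        ((1 + Matrix.vecMulVec v φ) * ((1 + Matrix.vecMulVec w ψ) * tvE v φ w ψ 0 0 0 0))) := by
    rw [tvE_zero, mul_one, sq, mul_assoc]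
  rw [h1, tvE_mulB hψw, tvE_mulA hφv, tvE_mulB hψw, tvE_mulA hφv]
  congr 1
  · linear_combination (1 : F) * h2
  · linear_combination (1 : F) * h2
  · linear_combination (φ ⬝ᵥ w) * h2
  · ring

theorem tv_mul_self {v φ : ι → F} (hφv : φ ⬝ᵥ v = 0) (h2 : (2 : F) = 0) :
    (1 + Matrix.vecMulVec v φ) * (1 + Matrix.vecMulVec v φ) = 1 := by
  simp only [add_mul, mul_add, one_mul, mul_one, vmv_mul, hφv, zero_smul, add_zero]
  ext i j
  simp only [Matrix.add_apply]
  linear_combination (Matrix.vecMulVec v φ i j) * h2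

end RankOne

section SLn

variable {F : Type*} [Field F] {n : ℕ}

theorem transvection01_eq (c : F) : Matrix.transvection (0 : Fin (n + 3)) 1 c =
    1 + Matrix.vecMulVec (c • (Pi.single 0 1 : Fin (n + 3) → F)) (Pi.single 1 1) := by
  unfold Matrix.transvection
  congr 1
  ext a b
  rw [Matrix.single_apply, Matrix.vecMulVec_apply]
  simp only [Pi.smul_apply, Pi.single_apply, smul_eq_mul]
  by_cases ha : a = 0 <;> by_cases hb : b = 1 <;> simp [ha, hb, eq_comm]

theorem det_one_add_vmv {m : Type*} [Fintype m] [DecidableEq m] (u v : m → F) :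
    (1 + Matrix.vecMulVec u v).det = 1 + v ⬝ᵥ u := by
  rw [Matrix.vecMulVec_eq Unit, Matrix.det_one_add_replicateCol_mul_replicateRow]

theorem sl_val_mul_inv (g : Matrix.SpecialLinearGroup (Fin (n + 3)) F) :
    (g : Matrix (Fin (n + 3)) (Fin (n + 3)) F) *
      ((g⁻¹ : Matrix.SpecialLinearGroup (Fin (n + 3)) F) : Matrix (Fin (n + 3)) (Fin (n + 3)) F) = 1 := by
  rw [← Matrix.SpecialLinearGroup.coe_mul, mul_inv_cancel]
  rfl

theorem sl_val_inv_mul (g : Matrix.SpecialLinearGroup (Fin (n + 3)) F) :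
    ((g⁻¹ : Matrix.SpecialLinearGroup (Fin (n + 3)) F) : Matrix (Fin (n + 3)) (Fin (n + 3)) F) *
      (g : Matrix (Fin (n + 3)) (Fin (n + 3)) F) = 1 := by
  rw [← Matrix.SpecialLinearGroup.coe_mul, inv_mul_cancel]
  rfl

/-- A conjugate of an elementary transvection is a transvection. -/
theorem isTv_of_conj (t g : Matrix.SpecialLinearGroup (Fin (n + 3)) F) (c : F) (hc : c ≠ 0)
    (h : ((g⁻¹ * t * g : Matrix.SpecialLinearGroup (Fin (n + 3)) F) :
      Matrix (Fin (n + 3)) (Fin (n + 3)) F) = Matrix.transvection 0 1 c) :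
    IsTv (t : Matrix (Fin (n + 3)) (Fin (n + 3)) F) := by
  have h1 : (t : Matrix (Fin (n + 3)) (Fin (n + 3)) F) =
      (g : Matrix (Fin (n + 3)) (Fin (n + 3)) F) * Matrix.transvection 0 1 c *
        ((g⁻¹ : Matrix.SpecialLinearGroup (Fin (n + 3)) F) :
          Matrix (Fin (n + 3)) (Fin (n + 3)) F) := by
    rw [← h, Matrix.SpecialLinearGroup.coe_mul, Matrix.SpecialLinearGroup.coe_mul]
    rw [← mul_assoc, ← mul_assoc, sl_val_mul_inv, one_mul, mul_assoc, sl_val_mul_inv, mul_one]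
  refine ⟨(g : Matrix (Fin (n + 3)) (Fin (n + 3)) F) *ᵥ (c • (Pi.single 0 1 : Fin (n + 3) → F)),
    (Pi.single 1 1 : Fin (n + 3) → F) ᵥ*
      ((g⁻¹ : Matrix.SpecialLinearGroup (Fin (n + 3)) F) : Matrix (Fin (n + 3)) (Fin (n + 3)) F),
    ?_, ?_, ?_, ?_⟩
  · intro h0
    have h2 := congrArg (fun x => ((g⁻¹ : Matrix.SpecialLinearGroup (Fin (n + 3)) F) :
      Matrix (Fin (n + 3)) (Fin (n + 3)) F) *ᵥ x) h0
    simp only [Matrix.mulVec_mulVec, sl_val_inv_mul, Matrix.one_mulVec, Matrix.mulVec_zero] at h2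
    have h3 := congrFun h2 0
    simp at h3
    exact hc h3
  · intro h0
    have h2 := congrArg (fun x => x ᵥ* (g : Matrix (Fin (n + 3)) (Fin (n + 3)) F)) h0
    simp only [Matrix.vecMul_vecMul, sl_val_inv_mul, Matrix.vecMul_one, Matrix.zero_vecMul] at h2
    have h3 := congrFun h2 1
    simp at h3
  · rw [← Matrix.dotProduct_mulVec, Matrix.mulVec_mulVec, sl_val_inv_mul, Matrix.one_mulVec]
    simp
  · rw [h1, transvection01_eq, mul_add, add_mul, mul_one, sl_val_mul_inv, Matrix.mul_vecMulVec,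
      Matrix.vecMulVec_mul]

/-- Every transvection is conjugate in `SL` to the elementary transvection `1 + E₀₁`. -/
theorem conj_of_isTv (t : Matrix.SpecialLinearGroup (Fin (n + 3)) F)
    (ht : IsTv (t : Matrix (Fin (n + 3)) (Fin (n + 3)) F)) :
    ∃ g : Matrix.SpecialLinearGroup (Fin (n + 3)) F,
      ((g⁻¹ * t * g : Matrix.SpecialLinearGroup (Fin (n + 3)) F) :
        Matrix (Fin (n + 3)) (Fin (n + 3)) F) = Matrix.transvection 0 1 1 := by
  obtain ⟨v, φ, hv, hφ, hφv, htv⟩ := ht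
  obtain ⟨j, hj⟩ := Function.ne_iff.1 hφ
  have hj' : φ j ≠ 0 := hj
  set u : Fin (n + 3) → F := (φ j)⁻¹ • Pi.single j 1 with hu
  have hφu : φ ⬝ᵥ u = 1 := by
    rw [hu, dotProduct_smul, dotProduct_single_one, smul_eq_mul, inv_mul_cancel₀ hj']
  have h01 : (0 : Fin (n + 3)) ≠ 1 := by
    intro h
    have := congrArg Fin.val h
    simp at this
  have hE : LinearIndependent F ![(Pi.single 0 1 : Fin (n + 3) → F), Pi.single 1 1] := by
    rw [LinearIndependent.pair_iff]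
    intro s r hsr
    have e0 := congrFun hsr 0
    have e1 := congrFun hsr 1
    simp [Pi.single_apply, h01, h01.symm] at e0 e1
    exact ⟨e0, e1⟩
  have hW : LinearIndependent F ![v, u] := by
    rw [LinearIndependent.pair_iff]
    intro s r hsr
    have e1 := congrArg (fun x => φ ⬝ᵥ x) hsr
    simp only [dotProduct_add, dotProduct_smul, hφv, hφu, smul_eq_mul, mul_zero, mul_one,
      zero_add, dotProduct_zero] at e1
    rw [e1, zero_smul, add_zero] at hsr
    rcases smul_eq_zero.1 hsr with h | h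
    · exact ⟨h, e1⟩
    · exact absurd h hv
  obtain ⟨g₀, hg₀⟩ := exists_sl_map (F := F) (m := Fin (n + 3))
    ![(Pi.single 0 1 : Fin (n + 3) → F), Pi.single 1 1] ![v, u] hE hW (by simp)
  have hg0 : (g₀ : Matrix (Fin (n + 3)) (Fin (n + 3)) F) *ᵥ Pi.single 0 1 = v := hg₀ 0
  have hg1 : (g₀ : Matrix (Fin (n + 3)) (Fin (n + 3)) F) *ᵥ Pi.single 1 1 = u := hg₀ 1
  set ψ : Fin (n + 3) → F := φ ᵥ* (g₀ : Matrix (Fin (n + 3)) (Fin (n + 3)) F) with hψ
  have hψ0 : ψ ⬝ᵥ Pi.single 0 1 = 0 := by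
    rw [hψ, ← Matrix.dotProduct_mulVec, hg0, hφv]
  have hψ1 : ψ ⬝ᵥ Pi.single 1 1 = 1 := by
    rw [hψ, ← Matrix.dotProduct_mulVec, hg1, hφu]
  set ψ' : Fin (n + 3) → F := ψ - Pi.single 1 1 with hψ'
  have hψ'0 : ψ' ⬝ᵥ Pi.single 0 1 = 0 := by
    rw [hψ', sub_dotProduct, hψ0]
    simp [h01.symm]
  have hψ'1 : ψ' ⬝ᵥ Pi.single 1 1 = 0 := by
    rw [hψ', sub_dotProduct, hψ1]
    simp
  have hdetH : (1 + Matrix.vecMulVec (Pi.single 1 1 : Fin (n + 3) → F) (-ψ')).det = 1 := by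
    rw [det_one_add_vmv, neg_dotProduct, hψ'1, neg_zero, add_zero]
  let H : Matrix.SpecialLinearGroup (Fin (n + 3)) F :=
    ⟨1 + Matrix.vecMulVec (Pi.single 1 1 : Fin (n + 3) → F) (-ψ'), hdetH⟩
  have hH0 : (H : Matrix (Fin (n + 3)) (Fin (n + 3)) F) *ᵥ Pi.single 0 1 = Pi.single 0 1 := by
    show (1 + Matrix.vecMulVec (Pi.single 1 1 : Fin (n + 3) → F) (-ψ')) *ᵥ Pi.single 0 1 = _
    rw [Matrix.add_mulVec, Matrix.one_mulVec, vmv_mulVec, neg_dotProduct, hψ'0, neg_zero,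
      zero_smul, add_zero]
  have hHψ : ψ ᵥ* (H : Matrix (Fin (n + 3)) (Fin (n + 3)) F) = Pi.single 1 1 := by
    show ψ ᵥ* (1 + Matrix.vecMulVec (Pi.single 1 1 : Fin (n + 3) → F) (-ψ')) = _
    rw [Matrix.vecMul_add, Matrix.vecMul_one, Matrix.vecMul_vecMulVec, hψ1, one_smul, hψ']
    abel
  refine ⟨g₀ * H, ?_⟩
  let T1 : Matrix.SpecialLinearGroup (Fin (n + 3)) F :=
    ⟨Matrix.transvection 0 1 1, Matrix.det_transvection_of_ne _ _ h01 1⟩
  have hG0 : ((g₀ * H : Matrix.SpecialLinearGroup (Fin (n + 3)) F) :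
      Matrix (Fin (n + 3)) (Fin (n + 3)) F) *ᵥ Pi.single 0 1 = v := by
    rw [Matrix.SpecialLinearGroup.coe_mul, ← Matrix.mulVec_mulVec, hH0, hg0]
  have hGφ : φ ᵥ* ((g₀ * H : Matrix.SpecialLinearGroup (Fin (n + 3)) F) :
      Matrix (Fin (n + 3)) (Fin (n + 3)) F) = Pi.single 1 1 := by
    rw [Matrix.SpecialLinearGroup.coe_mul, ← Matrix.vecMul_vecMul, ← hψ, hHψ]
  have hT1 : (T1 : Matrix (Fin (n + 3)) (Fin (n + 3)) F) =
      1 + Matrix.vecMulVec (Pi.single 0 1 : Fin (n + 3) → F) (Pi.single 1 1) := by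
    show Matrix.transvection 0 1 1 = _
    rw [transvection01_eq, one_smul]
  have key : t * (g₀ * H) = (g₀ * H) * T1 := by
    apply Subtype.ext
    rw [Matrix.SpecialLinearGroup.coe_mul t, Matrix.SpecialLinearGroup.coe_mul (g₀ * H) T1]
    rw [htv, hT1, add_mul, one_mul, mul_add, mul_one, Matrix.vecMulVec_mul,
      Matrix.mul_vecMulVec, hGφ, hG0]
  rw [mul_assoc, key, ← mul_assoc, inv_mul_cancel, one_mul]

end SLn

section Pair

variable {F : Type*} [Field F] [Fintype F] {n : ℕ}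

theorem sl_finite : Finite (Matrix.SpecialLinearGroup (Fin (n + 3)) F) :=
  Finite.of_injective (fun g => g.1) Subtype.val_injective

theorem tv_orderOf_two (h2 : (2 : F) = 0) (t : Matrix.SpecialLinearGroup (Fin (n + 3)) F)
    (ht : IsTv (t : Matrix (Fin (n + 3)) (Fin (n + 3)) F)) : t * t = 1 ∧ t ≠ 1 := by
  obtain ⟨v, φ, hv, hφ, hφv, htv⟩ := ht
  constructor
  · apply Subtype.ext
    rw [Matrix.SpecialLinearGroup.coe_mul, htv, tv_mul_self hφv h2]
    rfl
  · intro h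
    have h1 : (t : Matrix (Fin (n + 3)) (Fin (n + 3)) F) = 1 := by rw [h]; rfl
    rw [htv] at h1
    have h3 : Matrix.vecMulVec v φ = 0 := by
      have := congrArg (fun M => M - 1) h1
      simpa using this
    exact vmv_ne_zero hv hφ h3

theorem order_four_of_sq_tv (h2 : (2 : F) = 0) (x : Matrix.SpecialLinearGroup (Fin (n + 3)) F)
    (hx : IsTv ((x ^ 2 : Matrix.SpecialLinearGroup (Fin (n + 3)) F) :
      Matrix (Fin (n + 3)) (Fin (n + 3)) F)) : orderOf x = 4 := by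
  obtain ⟨h1, h3⟩ := tv_orderOf_two h2 _ hx
  have := orderOf_eq_prime_pow (p := 2) (n := 1) (x := x) (by rw [pow_one]; exact h3)
    (by
      have e : x ^ 2 ^ (1 + 1) = x ^ 2 * x ^ 2 := by
        rw [← pow_add]
        norm_num
      rw [e, h1])
  rw [this]
  norm_num

/-- The trichotomy for the product of two transvections in characteristic `2`. -/
theorem tv_pair_cases (h2 : (2 : F) = 0) (a b : Matrix.SpecialLinearGroup (Fin (n + 3)) F)
    (ha : IsTv (a : Matrix (Fin (n + 3)) (Fin (n + 3)) F))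
    (hb : IsTv (b : Matrix (Fin (n + 3)) (Fin (n + 3)) F)) :
    a * b = b * a ∨ (Odd (orderOf (a * b)) ∧ (Fintype.card F = 2 → (a * b) ^ 3 = 1)) ∨
      (orderOf (a * b) = 4 ∧ IsTv (((a * b) ^ 2 : Matrix.SpecialLinearGroup (Fin (n + 3)) F) :
        Matrix (Fin (n + 3)) (Fin (n + 3)) F)) := by
  haveI : Finite (Matrix.SpecialLinearGroup (Fin (n + 3)) F) := sl_finite
  obtain ⟨haa, -⟩ := tv_orderOf_two h2 a ha
  obtain ⟨hbb, -⟩ := tv_orderOf_two h2 b hb
  obtain ⟨v, φ, hv, hφ, hφv, hav⟩ := ha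
  obtain ⟨w, ψ, hw, hψ, hψw, hbw⟩ := hb
  have hab : ((a * b : Matrix.SpecialLinearGroup (Fin (n + 3)) F) :
      Matrix (Fin (n + 3)) (Fin (n + 3)) F) =
      (1 + Matrix.vecMulVec v φ) * (1 + Matrix.vecMulVec w ψ) := by
    rw [Matrix.SpecialLinearGroup.coe_mul, hav, hbw]
  have hsq : (((a * b) ^ 2 : Matrix.SpecialLinearGroup (Fin (n + 3)) F) :
      Matrix (Fin (n + 3)) (Fin (n + 3)) F) =
      tvE v φ w ψ ((φ ⬝ᵥ w) * (ψ ⬝ᵥ v)) ((φ ⬝ᵥ w) * (ψ ⬝ᵥ v))
        ((φ ⬝ᵥ w) + (φ ⬝ᵥ w) ^ 2 * (ψ ⬝ᵥ v)) (ψ ⬝ᵥ v) := by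
    rw [Matrix.SpecialLinearGroup.coe_pow, hab, tv_sq hφv hψw h2]
  by_cases hα : φ ⬝ᵥ w = 0
  · by_cases hβ : ψ ⬝ᵥ v = 0
    · left
      apply Subtype.ext
      rw [Matrix.SpecialLinearGroup.coe_mul, Matrix.SpecialLinearGroup.coe_mul, hav, hbw]
      simp only [add_mul, mul_add, one_mul, mul_one, vmv_mul, hα, hβ, zero_smul, add_zero]
      abel
    · right; right
      have hT : IsTv (((a * b) ^ 2 : Matrix.SpecialLinearGroup (Fin (n + 3)) F) :
          Matrix (Fin (n + 3)) (Fin (n + 3)) F) := by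
        refine ⟨(ψ ⬝ᵥ v) • w, φ, smul_ne_zero hβ hw, hφ, ?_, ?_⟩
        · rw [dotProduct_smul, hα, smul_zero]
        · rw [hsq, hα]
          unfold tvE
          simp [Matrix.smul_vecMulVec]
      exact ⟨order_four_of_sq_tv h2 _ hT, hT⟩
  · by_cases hβ : ψ ⬝ᵥ v = 0
    · right; right
      have hT : IsTv (((a * b) ^ 2 : Matrix.SpecialLinearGroup (Fin (n + 3)) F) :
          Matrix (Fin (n + 3)) (Fin (n + 3)) F) := by
        refine ⟨(φ ⬝ᵥ w) • v, ψ, smul_ne_zero hα hv, hψ, ?_, ?_⟩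
        · rw [dotProduct_smul, hβ, smul_zero]
        · rw [hsq, hβ]
          unfold tvE
          simp [Matrix.smul_vecMulVec]
      exact ⟨order_four_of_sq_tv h2 _ hT, hT⟩
    · right; left
      constructor
      · -- odd order
        by_contra hodd
        rw [Nat.not_odd_iff_even] at hodd
        obtain ⟨k, hk⟩ := hodd
        have hm : 0 < orderOf (a * b) := orderOf_pos _
        have hk0 : k ≠ 0 := by omega
        have hklt : k < orderOf (a * b) := by omega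
        set z := (a * b) ^ k with hz
        have hz2 : z * z = 1 := by rw [hz, ← pow_add, ← hk, pow_orderOf_eq_one]
        have hz1 : z ≠ 1 := pow_ne_one_of_lt_orderOf hk0 hklt
        have hinv : (a * b)⁻¹ = b * a := by
          apply inv_eq_of_mul_eq_one_right
          rw [mul_assoc, ← mul_assoc b b a, hbb, one_mul, haa]
        have ha_inv : a⁻¹ = a := inv_eq_of_mul_eq_one_right haa
        have hb_inv : b⁻¹ = b := inv_eq_of_mul_eq_one_right hbb
        have hz_inv : z⁻¹ = z := inv_eq_of_mul_eq_one_right hz2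
        have haz : a * z = z * a := by
          have h1 : a * z * a⁻¹ = z := by
            rw [hz, ← conj_pow]
            have h3 : a * (a * b) * a⁻¹ = (a * b)⁻¹ := by
              rw [hinv, ha_inv, ← mul_assoc, haa, one_mul]
            rw [h3, inv_pow, ← hz, hz_inv]
          rw [mul_inv_eq_iff_eq_mul] at h1
          exact h1
        have hbz : b * z = z * b := by
          have h1 : b * z * b⁻¹ = z := by
            rw [hz, ← conj_pow]
            have h3 : b * (a * b) * b⁻¹ = (a * b)⁻¹ := by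
              rw [hinv, mul_assoc, mul_assoc, mul_inv_cancel, mul_one]
            rw [h3, inv_pow, ← hz, hz_inv]
          rw [mul_inv_eq_iff_eq_mul] at h1
          exact h1
        obtain ⟨x₁, x₂, x₃, x₄, hZ⟩ := tvE_pow hφv hψw (w := w) (v := v) k
        have hzv : (z : Matrix (Fin (n + 3)) (Fin (n + 3)) F) = tvE v φ w ψ x₁ x₂ x₃ x₄ := by
          rw [hz, Matrix.SpecialLinearGroup.coe_pow, hab, hZ]
        have hAZ : Matrix.vecMulVec v φ * tvE v φ w ψ x₁ x₂ x₃ x₄ =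
            tvE v φ w ψ x₁ x₂ x₃ x₄ * Matrix.vecMulVec v φ := by
          have h1 := congrArg (fun g : Matrix.SpecialLinearGroup (Fin (n + 3)) F =>
            (g : Matrix (Fin (n + 3)) (Fin (n + 3)) F)) haz
          simp only [Matrix.SpecialLinearGroup.coe_mul, hav, hzv] at h1
          rw [add_mul, one_mul, mul_add, mul_one] at h1
          exact add_left_cancel h1
        have hBZ : Matrix.vecMulVec w ψ * tvE v φ w ψ x₁ x₂ x₃ x₄ =
            tvE v φ w ψ x₁ x₂ x₃ x₄ * Matrix.vecMulVec w ψ := by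
          have h1 := congrArg (fun g : Matrix.SpecialLinearGroup (Fin (n + 3)) F =>
            (g : Matrix (Fin (n + 3)) (Fin (n + 3)) F)) hbz
          simp only [Matrix.SpecialLinearGroup.coe_mul, hbw, hzv] at h1
          rw [add_mul, one_mul, mul_add, mul_one] at h1
          exact add_left_cancel h1
        have hZZ : tvE v φ w ψ x₁ x₂ x₃ x₄ * tvE v φ w ψ x₁ x₂ x₃ x₄ = 1 := by
          have h1 := congrArg (fun g : Matrix.SpecialLinearGroup (Fin (n + 3)) F =>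
            (g : Matrix (Fin (n + 3)) (Fin (n + 3)) F)) hz2
          simp only [Matrix.SpecialLinearGroup.coe_mul, hzv] at h1
          exact h1
        have e1 : Matrix.vecMulVec v φ *ᵥ (tvE v φ w ψ x₁ x₂ x₃ x₄ *ᵥ w) =
            tvE v φ w ψ x₁ x₂ x₃ x₄ *ᵥ (Matrix.vecMulVec v φ *ᵥ w) := by
          rw [Matrix.mulVec_mulVec, Matrix.mulVec_mulVec, hAZ]
        rw [tvE_mulVec_w hψw, vmv_mulVec, vmv_mulVec, Matrix.mulVec_smul, tvE_mulVec_v hφv] at e1
        have e1φ := congrArg (fun x => φ ⬝ᵥ x) e1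
        have e1ψ := congrArg (fun x => ψ ⬝ᵥ x) e1
        simp only [dotProduct_add, dotProduct_smul, smul_eq_mul, hφv, hψw, mul_zero, add_zero,
          zero_add] at e1φ e1ψ
        have hx2 : x₂ = 0 := by
          have h1 : (φ ⬝ᵥ w) * (φ ⬝ᵥ w) * (ψ ⬝ᵥ v) * x₂ = 0 := by
            first | linear_combination e1φ | linear_combination (-1 : F) * e1φ
          simpa [hα, hβ] using h1
        have e2 : Matrix.vecMulVec w ψ *ᵥ (tvE v φ w ψ x₁ x₂ x₃ x₄ *ᵥ v) =
            tvE v φ w ψ x₁ x₂ x₃ x₄ *ᵥ (Matrix.vecMulVec w ψ *ᵥ v) := by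
          rw [Matrix.mulVec_mulVec, Matrix.mulVec_mulVec, hBZ]
        rw [tvE_mulVec_v hφv, vmv_mulVec, vmv_mulVec, Matrix.mulVec_smul, tvE_mulVec_w hψw] at e2
        have e2ψ := congrArg (fun x => ψ ⬝ᵥ x) e2
        simp only [dotProduct_add, dotProduct_smul, smul_eq_mul, hφv, hψw, mul_zero, add_zero,
          zero_add] at e2ψ
        have hx1 : x₁ = 0 := by
          have h1 : (ψ ⬝ᵥ v) * (ψ ⬝ᵥ v) * (φ ⬝ᵥ w) * x₁ = 0 := by
            first | linear_combination e2ψ | linear_combination (-1 : F) * e2ψ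
          simpa [hα, hβ] using h1
        have e3 : tvE v φ w ψ x₁ x₂ x₃ x₄ *ᵥ (tvE v φ w ψ x₁ x₂ x₃ x₄ *ᵥ v) = v := by
          rw [Matrix.mulVec_mulVec, hZZ, Matrix.one_mulVec]
        rw [tvE_mulVec_v hφv, hx2, zero_mul, zero_smul, add_zero, Matrix.mulVec_smul,
          tvE_mulVec_v hφv, zero_mul, zero_smul, add_zero] at e3
        have e3ψ := congrArg (fun x => ψ ⬝ᵥ x) e3
        simp only [dotProduct_smul, smul_eq_mul] at e3ψ
        have hx3 : x₃ = 0 := by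
          have h1 : (ψ ⬝ᵥ v) * ((x₃ * (ψ ⬝ᵥ v)) ^ 2) = 0 := by
            linear_combination e3ψ - (x₃ * (ψ ⬝ᵥ v) * (ψ ⬝ᵥ v)) * h2
          simpa [hα, hβ] using h1
        have hx4 : x₄ = 0 := by
          have h1 : (φ ⬝ᵥ w) * (φ ⬝ᵥ w) * (ψ ⬝ᵥ v) * x₄ = 0 := by
            rw [hx3] at e1ψ
            linear_combination e1ψ
          simpa [hα, hβ] using h1
        apply hz1
        apply Subtype.ext
        rw [hzv, hx1, hx2, hx3, hx4, tvE_zero]
        rfl
      · intro hF2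
        have hone : ∀ x : F, x ≠ 0 → x = 1 := by
          intro x hx
          have := FiniteField.pow_card_sub_one_eq_one x hx
          rw [hF2] at this
          simpa using this
        have hα1 := hone _ hα
        have hβ1 := hone _ hβ
        apply Subtype.ext
        rw [pow_succ', Matrix.SpecialLinearGroup.coe_mul, hsq, hab, mul_assoc, tvE_mulB hψw,
          tvE_mulA hφv, hα1, hβ1]
        have e : ∀ c₁ c₂ c₃ c₄ : F, c₁ = 0 → c₂ = 0 → c₃ = 0 → c₄ = 0 →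
            tvE v φ w ψ c₁ c₂ c₃ c₄ = 1 := by
          intro c₁ c₂ c₃ c₄ h1 h2 h3 h4
          rw [h1, h2, h3, h4, tvE_zero]
        rw [e]
        · rfl
        · linear_combination (2 : F) * h2
        · linear_combination (2 : F) * h2
        · linear_combination (3 : F) * h2
        · linear_combination (1 : F) * h2

end Pair

section Elem

variable {F : Type*} [Field F] {m : Type*} [Fintype m] [DecidableEq m]

theorem single_eq_vmv (i j : m) (c : F) : Matrix.single i j c =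
    Matrix.vecMulVec (c • (Pi.single i 1 : m → F)) (Pi.single j 1) := by
  ext a b
  rw [Matrix.single_apply, Matrix.vecMulVec_apply]
  simp only [Pi.smul_apply, Pi.single_apply, smul_eq_mul]
  by_cases ha : a = i
  · by_cases hb : b = j
    · simp [ha, hb]
    · have hb' : ¬ j = b := fun h => hb h.symm
      simp [ha, hb, hb']
  · have ha' : ¬ i = a := fun h => ha h.symm
    simp [ha, ha']

/-- An elementary transvection with non-zero coefficient is a transvection. -/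
theorem isTv_elementary {i j : m} (hij : i ≠ j) {c : F} (hc : c ≠ 0) :
    IsTv (1 + Matrix.single i j c : Matrix m m F) := by
  refine ⟨c • (Pi.single i 1 : m → F), Pi.single j 1, ?_, ?_, ?_, ?_⟩
  · intro h
    have := congrFun h i
    simp at this
    exact hc this
  · intro h
    have := congrFun h j
    simp at this
  · rw [dotProduct_smul, single_one_dotProduct, Pi.single_apply, if_neg hij.symm, smul_zero]
  · rw [single_eq_vmv]

end Elem

end Cfsg.Agent.Helper38
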