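import Mathlib
import Cfsg.Prelude.Def_RootSubgroups
import Cfsg.Agent.Helper38.TransvRoot

/-!
# Transvection subgroups `T(v, φ) = {1 + c v ⊗ φ}` of `SL`

Basic algebra of the point-hyperplane transvection subgroups: conjugation, commuting pairs,
rank one pairs, commutator pairs.
-/

set_option autoImplicit false

namespace Cfsg.Agent.Helper38

open Matrix
open scoped commutatorElement

section TvSub

variable {ι : Type*} [Fintype ι] [DecidableEq ι] {F : Type*} [Field F]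

theorem slv_mul_inv (g : Matrix.SpecialLinearGroup ι F) :
    (g : Matrix ι ι F) * ((g⁻¹ : Matrix.SpecialLinearGroup ι F) : Matrix ι ι F) = 1 := by
  rw [← Matrix.SpecialLinearGroup.coe_mul, mul_inv_cancel]
  rfl

theorem slv_inv_mul (g : Matrix.SpecialLinearGroup ι F) :
    ((g⁻¹ : Matrix.SpecialLinearGroup ι F) : Matrix ι ι F) * (g : Matrix ι ι F) = 1 := by
  rw [← Matrix.SpecialLinearGroup.coe_mul, inv_mul_cancel]
  rfl

/-- The element `1 + c v ⊗ φ` of `SL`, for `φ v = 0`. -/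
def tvEl (v φ : ι → F) (h : φ ⬝ᵥ v = 0) (c : F) : Matrix.SpecialLinearGroup ι F :=
  ⟨1 + c • Matrix.vecMulVec v φ, by
    rw [← Matrix.smul_vecMulVec, det_one_add_vmv, dotProduct_smul, h, smul_zero, add_zero]⟩

theorem tvEl_val (v φ : ι → F) (h : φ ⬝ᵥ v = 0) (c : F) :
    ((tvEl v φ h c : Matrix.SpecialLinearGroup ι F) : Matrix ι ι F) =
      1 + c • Matrix.vecMulVec v φ := rfl

theorem tvEl_zero (v φ : ι → F) (h : φ ⬝ᵥ v = 0) : tvEl v φ h 0 = 1 := by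
  apply Subtype.ext
  rw [tvEl_val, zero_smul, add_zero]
  rfl

theorem tvEl_mul (v φ : ι → F) (h : φ ⬝ᵥ v = 0) (c d : F) :
    tvEl v φ h c * tvEl v φ h d = tvEl v φ h (c + d) := by
  apply Subtype.ext
  rw [Matrix.SpecialLinearGroup.coe_mul, tvEl_val, tvEl_val, tvEl_val]
  simp only [mul_add, add_mul, one_mul, mul_one, smul_mul_assoc, mul_smul_comm, vmv_mul, h,
    zero_smul, smul_zero, add_zero, add_smul, add_assoc]

theorem tvEl_inv (v φ : ι → F) (h : φ ⬝ᵥ v = 0) (c : F) :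
    (tvEl v φ h c)⁻¹ = tvEl v φ h (-c) :=
  inv_eq_of_mul_eq_one_right (by rw [tvEl_mul, add_neg_cancel, tvEl_zero])

theorem tvEl_eq_one_iff {v φ : ι → F} (h : φ ⬝ᵥ v = 0) (hv : v ≠ 0) (hφ : φ ≠ 0) (c : F) :
    tvEl v φ h c = 1 ↔ c = 0 := by
  constructor
  · intro e
    have e2 := congrArg (fun t : Matrix.SpecialLinearGroup ι F => (t : Matrix ι ι F)) e
    simp only [tvEl_val, Matrix.SpecialLinearGroup.coe_one] at e2
    have e3 : c • Matrix.vecMulVec v φ = 0 := by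
      have := congrArg (fun M : Matrix ι ι F => M - 1) e2
      simpa using this
    rcases smul_eq_zero.1 e3 with h0 | h0
    · exact h0
    · exact absurd h0 (vmv_ne_zero hv hφ)
  · rintro rfl
    exact tvEl_zero v φ h

/-- The transvection subgroup `T(v, φ)`. -/
def tvSub (v φ : ι → F) (h : φ ⬝ᵥ v = 0) : Subgroup (Matrix.SpecialLinearGroup ι F) where
  carrier := Set.range (tvEl v φ h)
  mul_mem' := by
    rintro _ _ ⟨c, rfl⟩ ⟨d, rfl⟩
    exact ⟨c + d, (tvEl_mul v φ h c d).symm⟩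
  one_mem' := ⟨0, tvEl_zero v φ h⟩
  inv_mem' := by
    rintro _ ⟨c, rfl⟩
    exact ⟨-c, (tvEl_inv v φ h c).symm⟩

theorem tvEl_mem (v φ : ι → F) (h : φ ⬝ᵥ v = 0) (c : F) : tvEl v φ h c ∈ tvSub v φ h :=
  ⟨c, rfl⟩

theorem mem_tvSub_iff {v φ : ι → F} {h : φ ⬝ᵥ v = 0} {t : Matrix.SpecialLinearGroup ι F} :
    t ∈ tvSub v φ h ↔ ∃ c : F, t = tvEl v φ h c := by
  constructor
  · rintro ⟨c, rfl⟩
    exact ⟨c, rfl⟩
  · rintro ⟨c, rfl⟩
    exact ⟨c, rfl⟩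

/-- The set of elements `1 + c N` of `SL`. -/
def tvSet (N : Matrix ι ι F) : Set (Matrix.SpecialLinearGroup ι F) :=
  {t | ∃ c : F, (t : Matrix ι ι F) = 1 + c • N}

theorem tvSet_smul (N : Matrix ι ι F) {r : F} (hr : r ≠ 0) : tvSet (r • N) = tvSet N := by
  ext t
  constructor
  · rintro ⟨c, hc⟩
    exact ⟨c * r, by rw [hc, smul_smul]⟩
  · rintro ⟨c, hc⟩
    exact ⟨c * r⁻¹, by rw [hc, smul_smul, mul_assoc, inv_mul_cancel₀ hr, mul_one]⟩

theorem coe_tvSub (v φ : ι → F) (h : φ ⬝ᵥ v = 0) :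
    (tvSub v φ h : Set (Matrix.SpecialLinearGroup ι F)) = tvSet (Matrix.vecMulVec v φ) := by
  ext t
  constructor
  · rintro ⟨c, rfl⟩
    exact ⟨c, rfl⟩
  · rintro ⟨c, hc⟩
    exact ⟨c, Subtype.ext hc.symm⟩

theorem mem_conjBy_iff {G : Type*} [Group G] (A : Subgroup G) (g t : G) :
    t ∈ Cfsg.conjBy A g ↔ g⁻¹ * t * g ∈ A := by
  constructor
  · rintro ⟨x, hx, rfl⟩
    have e : g⁻¹ * ((MulAut.conj g).toMonoidHom x) * g = x := by
      simp only [MulEquiv.coe_toMonoidHom, MulAut.conj_apply]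
      group
    rw [e]
    exact hx
  · intro h
    refine ⟨g⁻¹ * t * g, h, ?_⟩
    simp only [MulEquiv.coe_toMonoidHom, MulAut.conj_apply]
    group

theorem conjBy_conjBy {G : Type*} [Group G] (A : Subgroup G) (g h : G) :
    Cfsg.conjBy (Cfsg.conjBy A g) h = Cfsg.conjBy A (h * g) := by
  ext t
  rw [mem_conjBy_iff, mem_conjBy_iff, mem_conjBy_iff]
  have e : g⁻¹ * (h⁻¹ * t * h) * g = (h * g)⁻¹ * t * (h * g) := by group
  rw [e]

theorem conjBy_one {G : Type*} [Group G] (A : Subgroup G) : Cfsg.conjBy A 1 = A := by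
  ext t
  rw [mem_conjBy_iff]
  simp

theorem conj_val_iff (g t : Matrix.SpecialLinearGroup ι F) (N : Matrix ι ι F) :
    ((g⁻¹ * t * g : Matrix.SpecialLinearGroup ι F) : Matrix ι ι F) = 1 + N ↔
      (t : Matrix ι ι F) = 1 + (g : Matrix ι ι F) * N *
        ((g⁻¹ : Matrix.SpecialLinearGroup ι F) : Matrix ι ι F) := by
  constructor
  · intro hc
    have e : t = g * (g⁻¹ * t * g) * g⁻¹ := by group
    rw [e, Matrix.SpecialLinearGroup.coe_mul, Matrix.SpecialLinearGroup.coe_mul, hc, mul_add,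
      add_mul, mul_one, slv_mul_inv]
  · intro hc
    rw [Matrix.SpecialLinearGroup.coe_mul, Matrix.SpecialLinearGroup.coe_mul, hc, mul_add,
      add_mul, mul_one, slv_inv_mul, ← mul_assoc, ← mul_assoc, slv_inv_mul, one_mul, mul_assoc,
      slv_inv_mul, mul_one]

theorem coe_conjBy_tvSub (v φ : ι → F) (h : φ ⬝ᵥ v = 0) (g : Matrix.SpecialLinearGroup ι F) :
    (Cfsg.conjBy (tvSub v φ h) g : Set (Matrix.SpecialLinearGroup ι F)) =
      tvSet ((g : Matrix ι ι F) * Matrix.vecMulVec v φ *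
        ((g⁻¹ : Matrix.SpecialLinearGroup ι F) : Matrix ι ι F)) := by
  ext t
  rw [SetLike.mem_coe, mem_conjBy_iff, ← SetLike.mem_coe, coe_tvSub]
  constructor
  · rintro ⟨c, hc⟩
    refine ⟨c, ?_⟩
    rw [(conj_val_iff g t _).1 hc, Matrix.mul_smul, Matrix.smul_mul]
  · rintro ⟨c, hc⟩
    refine ⟨c, ?_⟩
    rw [conj_val_iff, hc, Matrix.mul_smul, Matrix.smul_mul]

theorem tvSub_comm (v φ : ι → F) (h : φ ⬝ᵥ v = 0) : IsMulCommutative (tvSub v φ h) := by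
  refine ⟨⟨fun a b => ?_⟩⟩
  obtain ⟨c, hc⟩ := mem_tvSub_iff.1 a.2
  obtain ⟨d, hd⟩ := mem_tvSub_iff.1 b.2
  apply Subtype.ext
  rw [Subgroup.coe_mul, Subgroup.coe_mul, hc, hd, tvEl_mul, tvEl_mul, add_comm]

theorem tvSub_nilpotent (v φ : ι → F) (h : φ ⬝ᵥ v = 0) : Group.IsNilpotent (tvSub v φ h) :=
  ⟨⟨1, Subgroup.upperCentralSeries_one_eq_top_iff.2 (tvSub_comm v φ h)⟩⟩

theorem tvSub_ne_bot {v φ : ι → F} (h : φ ⬝ᵥ v = 0) (hv : v ≠ 0) (hφ : φ ≠ 0) :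
    tvSub v φ h ≠ ⊥ := by
  intro e
  have h1 : tvEl v φ h 1 ∈ tvSub v φ h := tvEl_mem v φ h 1
  rw [e, Subgroup.mem_bot, tvEl_eq_one_iff h hv hφ] at h1
  exact one_ne_zero h1

end TvSub

section Pair

variable {ι : Type*} [Fintype ι] [DecidableEq ι] {F : Type*} [Field F]
variable {v φ w ψ : ι → F}

theorem tvSet_eq_imp {N₁ N₂ : Matrix ι ι F} (t : Matrix.SpecialLinearGroup ι F) (ht : t ≠ 1)
    (h1 : t ∈ tvSet N₁) (h2 : t ∈ tvSet N₂) : ∃ y : F, y ≠ 0 ∧ N₁ = y • N₂ := by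
  obtain ⟨c₁, hc₁⟩ := h1
  obtain ⟨c₂, hc₂⟩ := h2
  have hc1 : c₁ ≠ 0 := by
    rintro rfl
    apply ht
    apply Subtype.ext
    rw [hc₁, zero_smul, add_zero]
    rfl
  have hc2 : c₂ ≠ 0 := by
    rintro rfl
    apply ht
    apply Subtype.ext
    rw [hc₂, zero_smul, add_zero]
    rfl
  have e : c₁ • N₁ = c₂ • N₂ := by
    have := hc₁.symm.trans hc₂
    exact add_left_cancel this
  refine ⟨c₁⁻¹ * c₂, mul_ne_zero (inv_ne_zero hc1) hc2, ?_⟩
  rw [← smul_smul, ← e, smul_smul, inv_mul_cancel₀ hc1, one_smul]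

/-- Commuting case. -/
theorem tvEl_commute (h : φ ⬝ᵥ v = 0) (h' : ψ ⬝ᵥ w = 0) (hα : φ ⬝ᵥ w = 0) (hβ : ψ ⬝ᵥ v = 0)
    (c d : F) : tvEl v φ h c * tvEl w ψ h' d = tvEl w ψ h' d * tvEl v φ h c := by
  apply Subtype.ext
  rw [Matrix.SpecialLinearGroup.coe_mul, Matrix.SpecialLinearGroup.coe_mul, tvEl_val, tvEl_val]
  simp only [mul_add, add_mul, one_mul, mul_one, smul_mul_assoc, mul_smul_comm, vmv_mul, hα, hβ,
    zero_smul, smul_zero, add_zero]
  abel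

theorem tvSub_commutator_eq_bot (h : φ ⬝ᵥ v = 0) (h' : ψ ⬝ᵥ w = 0) (hα : φ ⬝ᵥ w = 0)
    (hβ : ψ ⬝ᵥ v = 0) : ⁅tvSub v φ h, tvSub w ψ h'⁆ = ⊥ := by
  rw [Subgroup.commutator_eq_bot_iff_le_centralizer]
  intro a ha
  rw [Subgroup.mem_centralizer_iff]
  intro b hb
  obtain ⟨c, rfl⟩ := mem_tvSub_iff.1 ha
  obtain ⟨d, rfl⟩ := mem_tvSub_iff.1 hb
  exact (tvEl_commute h h' hα hβ c d).symm

theorem tv_rankOne_conj (h : φ ⬝ᵥ v = 0) (h' : ψ ⬝ᵥ w = 0) {c d : F}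
    (hcd : c * d * (φ ⬝ᵥ w) * (ψ ⬝ᵥ v) = 1) :
    Cfsg.conjBy (tvSub v φ h) (tvEl w ψ h' d)⁻¹ =
      Cfsg.conjBy (tvSub w ψ h') (tvEl v φ h c)⁻¹ := by
  apply SetLike.coe_injective
  rw [coe_conjBy_tvSub, coe_conjBy_tvSub, inv_inv, inv_inv, tvEl_inv, tvEl_inv, tvEl_val,
    tvEl_val, tvEl_val, tvEl_val]
  have hd : d ≠ 0 := by
    rintro rfl
    simp at hcd
  have hα : φ ⬝ᵥ w ≠ 0 := by
    intro h0
    rw [h0] at hcd
    simp at hcd
  have hβ : ψ ⬝ᵥ v ≠ 0 := by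
    intro h0
    rw [h0] at hcd
    simp at hcd
  have hr : -(d * d * (φ ⬝ᵥ w) * (ψ ⬝ᵥ v)) ≠ 0 :=
    neg_ne_zero.2 (mul_ne_zero (mul_ne_zero (mul_ne_zero hd hd) hα) hβ)
  have e : (1 + (-d) • Matrix.vecMulVec w ψ) * Matrix.vecMulVec v φ *
        (1 + d • Matrix.vecMulVec w ψ) =
      (-(d * d * (φ ⬝ᵥ w) * (ψ ⬝ᵥ v))) • ((1 + (-c) • Matrix.vecMulVec v φ) *
        Matrix.vecMulVec w ψ * (1 + c • Matrix.vecMulVec v φ)) := by
    simp only [mul_add, add_mul, one_mul, mul_one, smul_mul_assoc, mul_smul_comm, vmv_mul]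
    ext i j
    simp only [Matrix.add_apply, Matrix.smul_apply, Matrix.vecMulVec_apply, smul_eq_mul]
    linear_combination (-((1 + c * d * (φ ⬝ᵥ w) * (ψ ⬝ᵥ v)) * (v i * φ j) -
      d * (ψ ⬝ᵥ v) * (w i * φ j) + d * (φ ⬝ᵥ w) * (v i * ψ j))) * hcd
  rw [e, tvSet_smul _ hr]

theorem tv_rankOneCondition (h : φ ⬝ᵥ v = 0) (h' : ψ ⬝ᵥ w = 0) (hv : v ≠ 0) (hφ : φ ≠ 0)
    (hw : w ≠ 0) (hψ : ψ ≠ 0) (hα : φ ⬝ᵥ w ≠ 0) (hβ : ψ ⬝ᵥ v ≠ 0) :
    Cfsg.RankOneCondition (tvSub v φ h) (tvSub w ψ h') := by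
  intro a ha ha1
  obtain ⟨c, rfl⟩ := mem_tvSub_iff.1 ha
  have hc : c ≠ 0 := fun h0 => ha1 ((tvEl_eq_one_iff h hv hφ c).2 h0)
  refine ⟨tvEl w ψ h' (c * (φ ⬝ᵥ w) * (ψ ⬝ᵥ v))⁻¹, tvEl_mem _ _ _ _, ?_, ?_⟩
  · rw [Ne, tvEl_eq_one_iff h' hw hψ]
    exact inv_ne_zero (mul_ne_zero (mul_ne_zero hc hα) hβ)
  · apply tv_rankOne_conj
    field_simp

theorem tvSub_ne_of_dot (h : φ ⬝ᵥ v = 0) (h' : ψ ⬝ᵥ w = 0) (hv : v ≠ 0) (hα : φ ⬝ᵥ w ≠ 0) :
    tvSub v φ h ≠ tvSub w ψ h' := by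
  intro e
  have h1 : tvEl v φ h 1 ∈ tvSub w ψ h' := e ▸ tvEl_mem v φ h 1
  obtain ⟨d, hd⟩ := mem_tvSub_iff.1 h1
  have h2 := congrArg (fun t : Matrix.SpecialLinearGroup ι F => (t : Matrix ι ι F) *ᵥ w) hd
  simp only [tvEl_val, Matrix.add_mulVec, Matrix.one_mulVec, Matrix.smul_mulVec, vmv_mulVec, h',
    zero_smul, smul_zero, add_zero, one_smul] at h2
  have h3 : (φ ⬝ᵥ w) • v = 0 := by simpa using h2
  rcases smul_eq_zero.1 h3 with h4 | h4
  · exact hα h4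
  · exact hv h4

theorem tv_isRankOnePair (h : φ ⬝ᵥ v = 0) (h' : ψ ⬝ᵥ w = 0) (hv : v ≠ 0) (hφ : φ ≠ 0)
    (hw : w ≠ 0) (hψ : ψ ≠ 0) (hα : φ ⬝ᵥ w ≠ 0) (hβ : ψ ⬝ᵥ v ≠ 0) :
    Cfsg.IsRankOnePair (tvSub v φ h) (tvSub w ψ h') :=
  ⟨tvSub_ne_of_dot h h' hv hα, tvSub_nilpotent v φ h, tvSub_nilpotent w ψ h',
    tv_rankOneCondition h h' hv hφ hw hψ hα hβ, tv_rankOneCondition h' h hw hψ hv hφ hβ hα⟩

/-- A rank one pair of transvection subgroups is in "general position". -/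
theorem tv_rankOne_dot (h : φ ⬝ᵥ v = 0) (h' : ψ ⬝ᵥ w = 0) (hv : v ≠ 0) (hφ : φ ≠ 0)
    (hp : Cfsg.IsRankOnePair (tvSub v φ h) (tvSub w ψ h')) : φ ⬝ᵥ w ≠ 0 := by
  intro hα
  have ha1 : tvEl v φ h 1 ≠ 1 := by
    rw [Ne, tvEl_eq_one_iff h hv hφ]
    exact one_ne_zero
  obtain ⟨b, hb, hb1, hconj⟩ := hp.cond_left (tvEl v φ h 1) (tvEl_mem _ _ _ _) ha1
  obtain ⟨d, rfl⟩ := mem_tvSub_iff.1 hb
  set t : Matrix.SpecialLinearGroup ι F := (tvEl w ψ h' d)⁻¹ * tvEl v φ h 1 * tvEl w ψ h' d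
    with ht
  have ht1 : t ≠ 1 := by
    intro e
    apply ha1
    have e2 : tvEl v φ h 1 = tvEl w ψ h' d * t * (tvEl w ψ h' d)⁻¹ := by
      rw [ht]
      group
    rw [e2, e]
    group
  have hmem : t ∈ Cfsg.conjBy (tvSub v φ h) (tvEl w ψ h' d)⁻¹ := by
    rw [mem_conjBy_iff]
    have e2 : (tvEl w ψ h' d)⁻¹⁻¹ * t * (tvEl w ψ h' d)⁻¹ = tvEl v φ h 1 := by
      rw [ht]
      group
    rw [e2]
    exact tvEl_mem _ _ _ _
  have hmem2 : t ∈ Cfsg.conjBy (tvSub w ψ h') (tvEl v φ h 1)⁻¹ := hconj ▸ hmem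
  rw [← SetLike.mem_coe, coe_conjBy_tvSub] at hmem hmem2
  obtain ⟨y, hy, hN⟩ := tvSet_eq_imp t ht1 hmem hmem2
  rw [inv_inv, inv_inv, tvEl_inv, tvEl_inv, tvEl_val, tvEl_val, tvEl_val, tvEl_val] at hN
  simp only [mul_add, add_mul, one_mul, mul_one, smul_mul_assoc, mul_smul_comm, vmv_mul,
    hα, zero_smul, smul_zero, add_zero] at hN
  obtain ⟨j, hj⟩ := Function.ne_iff.1 hφ
  have hj' : φ j ≠ 0 := hj
  have hvw : v = (d * (ψ ⬝ᵥ v) + y * (ψ j + (ψ ⬝ᵥ v) * φ j) / φ j) • w := by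
    ext i
    have := congrFun (congrFun hN i) j
    simp only [Matrix.add_apply, Matrix.smul_apply, Matrix.vecMulVec_apply, smul_eq_mul] at this
    simp only [Pi.smul_apply, smul_eq_mul]
    field_simp
    linear_combination this
  have hβ : ψ ⬝ᵥ v = 0 := by rw [hvw, dotProduct_smul, h', smul_zero]
  rw [hβ] at hN
  simp only [zero_smul, smul_zero, add_zero] at hN
  apply hp.ne
  apply SetLike.coe_injective
  rw [coe_tvSub, coe_tvSub, hN, tvSet_smul _ hy]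

theorem tvEl_commutator (h : φ ⬝ᵥ v = 0) (h' : ψ ⬝ᵥ w = 0) (hβ : ψ ⬝ᵥ v = 0) (c d : F) :
    tvEl v φ h c * tvEl w ψ h' d * (tvEl v φ h c)⁻¹ * (tvEl w ψ h' d)⁻¹ =
      tvEl v ψ hβ (c * d * (φ ⬝ᵥ w)) := by
  rw [mul_inv_eq_iff_eq_mul, mul_inv_eq_iff_eq_mul]
  apply Subtype.ext
  simp only [Matrix.SpecialLinearGroup.coe_mul, tvEl_val]
  simp only [mul_add, add_mul, one_mul, mul_one, smul_mul_assoc, mul_smul_comm, vmv_mul, h',
    hβ, zero_smul, smul_zero, add_zero]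
  module

theorem tv_commutator_eq (h : φ ⬝ᵥ v = 0) (h' : ψ ⬝ᵥ w = 0) (hα : φ ⬝ᵥ w ≠ 0)
    (hβ : ψ ⬝ᵥ v = 0) : ⁅tvSub v φ h, tvSub w ψ h'⁆ = tvSub v ψ hβ := by
  apply le_antisymm
  · rw [Subgroup.commutator_le]
    intro a ha b hb
    obtain ⟨c, rfl⟩ := mem_tvSub_iff.1 ha
    obtain ⟨d, rfl⟩ := mem_tvSub_iff.1 hb
    rw [commutatorElement_def, tvEl_commutator h h' hβ]
    exact tvEl_mem _ _ _ _
  · intro t ht
    obtain ⟨x, rfl⟩ := mem_tvSub_iff.1 ht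
    have e : tvEl v ψ hβ x = ⁅tvEl v φ h 1, tvEl w ψ h' (x / (φ ⬝ᵥ w))⁆ := by
      rw [commutatorElement_def, tvEl_commutator h h' hβ]
      congr 1
      field_simp
    rw [e]
    exact Subgroup.commutator_mem_commutator (tvEl_mem _ _ _ _) (tvEl_mem _ _ _ _)

theorem tv_rootCommutatorCase (S : Set (Subgroup (Matrix.SpecialLinearGroup ι F)))
    (h : φ ⬝ᵥ v = 0) (h' : ψ ⬝ᵥ w = 0) (hv : v ≠ 0) (hφ : φ ≠ 0) (hw : w ≠ 0) (hψ : ψ ≠ 0)
    (hα : φ ⬝ᵥ w ≠ 0) (hβ : ψ ⬝ᵥ v = 0) (hS : tvSub v ψ hβ ∈ S) :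
    Cfsg.RootCommutatorCase S (tvSub v φ h) (tvSub w ψ h') := by
  rw [Cfsg.RootCommutatorCase, tv_commutator_eq h h' hα hβ]
  refine ⟨hS, ?_, ?_, ?_⟩
  · intro c hc x hx
    obtain ⟨z, rfl⟩ := mem_tvSub_iff.1 hc
    have hle : tvSub v φ h ⊔ tvSub w ψ h' ≤ Subgroup.centralizer {tvEl v ψ hβ z} := by
      rw [sup_le_iff]
      constructor
      · intro a ha
        obtain ⟨c, rfl⟩ := mem_tvSub_iff.1 ha
        rw [Subgroup.mem_centralizer_iff]
        intro y hy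
        rw [Set.mem_singleton_iff] at hy
        rw [hy]
        exact tvEl_commute hβ h hβ h z c
      · intro a ha
        obtain ⟨d, rfl⟩ := mem_tvSub_iff.1 ha
        rw [Subgroup.mem_centralizer_iff]
        intro y hy
        rw [Set.mem_singleton_iff] at hy
        rw [hy]
        exact tvEl_commute hβ h' h' hβ z d
    have h3 := hle hx
    rw [Subgroup.mem_centralizer_iff] at h3
    exact h3 _ rfl
  · intro a ha ha1
    obtain ⟨c, rfl⟩ := mem_tvSub_iff.1 ha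
    have hc : c ≠ 0 := fun h0 => ha1 ((tvEl_eq_one_iff h hv hφ c).2 h0)
    have himg : (fun b => tvEl v φ h c * b * (tvEl v φ h c)⁻¹ * b⁻¹) ''
        (tvSub w ψ h' : Set (Matrix.SpecialLinearGroup ι F)) =
        (tvSub v ψ hβ : Set (Matrix.SpecialLinearGroup ι F)) := by
      ext t
      constructor
      · rintro ⟨b, hb, rfl⟩
        obtain ⟨d, rfl⟩ := mem_tvSub_iff.1 hb
        simp only
        rw [tvEl_commutator h h' hβ]
        exact tvEl_mem _ _ _ _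
      · intro ht
        obtain ⟨x, rfl⟩ := mem_tvSub_iff.1 ht
        refine ⟨tvEl w ψ h' (x / (c * (φ ⬝ᵥ w))), tvEl_mem _ _ _ _, ?_⟩
        simp only
        rw [tvEl_commutator h h' hβ]
        congr 1
        field_simp
    rw [himg, Subgroup.closure_eq]
  · intro b hb hb1
    obtain ⟨d, rfl⟩ := mem_tvSub_iff.1 hb
    have hd : d ≠ 0 := fun h0 => hb1 ((tvEl_eq_one_iff h' hw hψ d).2 h0)
    have himg : (fun a => a * tvEl w ψ h' d * a⁻¹ * (tvEl w ψ h' d)⁻¹) ''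
        (tvSub v φ h : Set (Matrix.SpecialLinearGroup ι F)) =
        (tvSub v ψ hβ : Set (Matrix.SpecialLinearGroup ι F)) := by
      ext t
      constructor
      · rintro ⟨a, ha, rfl⟩
        obtain ⟨c, rfl⟩ := mem_tvSub_iff.1 ha
        simp only
        rw [tvEl_commutator h h' hβ]
        exact tvEl_mem _ _ _ _
      · intro ht
        obtain ⟨x, rfl⟩ := mem_tvSub_iff.1 ht
        refine ⟨tvEl v φ h (x / (d * (φ ⬝ᵥ w))), tvEl_mem _ _ _ _, ?_⟩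
        simp only
        rw [tvEl_commutator h h' hβ]
        congr 1
        field_simp
    rw [himg, Subgroup.closure_eq]

theorem rootCommutatorCase_symm {G : Type*} [Group G] {S : Set (Subgroup G)} {A B : Subgroup G}
    (hc : Cfsg.RootCommutatorCase S A B) : Cfsg.RootCommutatorCase S B A := by
  obtain ⟨h1, h2, h3, h4⟩ := hc
  have e : ⁅B, A⁆ = ⁅A, B⁆ := Subgroup.commutator_comm B A
  have inv_img : ∀ (X : Subgroup G) (f : G → G),
      Subgroup.closure ((fun x => (f x)⁻¹) '' (X : Set G)) =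
        Subgroup.closure (f '' (X : Set G)) := by
    intro X f
    have : (fun x => (f x)⁻¹) '' (X : Set G) = (f '' (X : Set G))⁻¹ := by
      rw [← Set.image_inv_eq_inv, Set.image_image]
    rw [this, Subgroup.closure_inv]
  refine ⟨e ▸ h1, ?_, ?_, ?_⟩
  · intro c hc x hx
    rw [e] at hc
    rw [sup_comm] at hx
    exact h2 c hc x hx
  · intro b hb hb1
    rw [e, ← h4 b hb hb1, ← inv_img]
    congr 2
    funext a
    group
  · intro a ha ha1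
    rw [e, ← h3 a ha ha1, ← inv_img]
    congr 2
    funext b
    group

end Pair

section SL2

variable {ι : Type*} [Fintype ι] [DecidableEq ι] {F : Type*} [Field F]

/-- The map `SL₂ → SL`, `M ↦ 1 + U (M - 1) V`, for `V U = 1`. -/
def sl2EmbFun (U : Matrix ι (Fin 2) F) (V : Matrix (Fin 2) ι F) (hVU : V * U = 1)
    (M : Matrix.SpecialLinearGroup (Fin 2) F) : Matrix.SpecialLinearGroup ι F :=
  ⟨1 + U * ((M : Matrix (Fin 2) (Fin 2) F) - 1) * V, by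
    rw [Matrix.mul_assoc, Matrix.det_one_add_mul_comm, Matrix.mul_assoc, hVU, Matrix.mul_one,
      add_sub_cancel, M.det_coe]⟩

theorem sl2EmbFun_val (U : Matrix ι (Fin 2) F) (V : Matrix (Fin 2) ι F) (hVU : V * U = 1)
    (M : Matrix.SpecialLinearGroup (Fin 2) F) :
    ((sl2EmbFun U V hVU M : Matrix.SpecialLinearGroup ι F) : Matrix ι ι F) =
      1 + U * ((M : Matrix (Fin 2) (Fin 2) F) - 1) * V := rfl

theorem sl2EmbFun_mul (U : Matrix ι (Fin 2) F) (V : Matrix (Fin 2) ι F) (hVU : V * U = 1)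
    (M N : Matrix.SpecialLinearGroup (Fin 2) F) :
    sl2EmbFun U V hVU (M * N) = sl2EmbFun U V hVU M * sl2EmbFun U V hVU N := by
  apply Subtype.ext
  have key : ((M : Matrix (Fin 2) (Fin 2) F) * (N : Matrix (Fin 2) (Fin 2) F) - 1) =
      ((M : Matrix (Fin 2) (Fin 2) F) - 1) + ((N : Matrix (Fin 2) (Fin 2) F) - 1) +
        ((M : Matrix (Fin 2) (Fin 2) F) - 1) * ((N : Matrix (Fin 2) (Fin 2) F) - 1) := by
    noncomm_ring
  have e2 : U * ((M : Matrix (Fin 2) (Fin 2) F) - 1) * V *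
      (U * ((N : Matrix (Fin 2) (Fin 2) F) - 1) * V) =
      U * (((M : Matrix (Fin 2) (Fin 2) F) - 1) * ((N : Matrix (Fin 2) (Fin 2) F) - 1)) * V := by
    calc U * ((M : Matrix (Fin 2) (Fin 2) F) - 1) * V *
          (U * ((N : Matrix (Fin 2) (Fin 2) F) - 1) * V)
        = U * ((M : Matrix (Fin 2) (Fin 2) F) - 1) * (V * U) *
            ((N : Matrix (Fin 2) (Fin 2) F) - 1) * V := by
          simp only [Matrix.mul_assoc]
      _ = _ := by
          rw [hVU, Matrix.mul_one]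
          simp only [Matrix.mul_assoc]
  rw [Matrix.SpecialLinearGroup.coe_mul, sl2EmbFun_val, sl2EmbFun_val, sl2EmbFun_val,
    Matrix.SpecialLinearGroup.coe_mul, key, mul_add, add_mul, add_mul, one_mul, one_mul,
    mul_one, e2, Matrix.mul_add, Matrix.mul_add, Matrix.add_mul, Matrix.add_mul]
  abel

/-- The homomorphism `SL₂ → SL`, `M ↦ 1 + U (M - 1) V`, for `V U = 1`. -/
def sl2Emb (U : Matrix ι (Fin 2) F) (V : Matrix (Fin 2) ι F) (hVU : V * U = 1) :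
    Matrix.SpecialLinearGroup (Fin 2) F →* Matrix.SpecialLinearGroup ι F where
  toFun := sl2EmbFun U V hVU
  map_one' := by
    apply Subtype.ext
    rw [sl2EmbFun_val]
    simp
  map_mul' := sl2EmbFun_mul U V hVU

theorem sl2Emb_val (U : Matrix ι (Fin 2) F) (V : Matrix (Fin 2) ι F) (hVU : V * U = 1)
    (M : Matrix.SpecialLinearGroup (Fin 2) F) :
    ((sl2Emb U V hVU M : Matrix.SpecialLinearGroup ι F) : Matrix ι ι F) =
      1 + U * ((M : Matrix (Fin 2) (Fin 2) F) - 1) * V := rfl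

/-- The upper unitriangular element of `SL₂`. -/
def upperEl (x : F) : Matrix.SpecialLinearGroup (Fin 2) F :=
  ⟨!![1, x; 0, 1], by simp [Matrix.det_fin_two]⟩

/-- The lower unitriangular element of `SL₂`. -/
def lowerEl (x : F) : Matrix.SpecialLinearGroup (Fin 2) F :=
  ⟨!![1, 0; x, 1], by simp [Matrix.det_fin_two]⟩

theorem upperEl_val (x : F) :
    ((upperEl x : Matrix.SpecialLinearGroup (Fin 2) F) : Matrix (Fin 2) (Fin 2) F) =
      !![1, x; 0, 1] := rfl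

theorem lowerEl_val (x : F) :
    ((lowerEl x : Matrix.SpecialLinearGroup (Fin 2) F) : Matrix (Fin 2) (Fin 2) F) =
      !![1, 0; x, 1] := rfl

theorem sl2Emb_upper (U : Matrix ι (Fin 2) F) (V : Matrix (Fin 2) ι F) (hVU : V * U = 1)
    (g : Matrix.SpecialLinearGroup (Fin 2) F)
    (h10 : (g : Matrix (Fin 2) (Fin 2) F) 1 0 = 0) (h00 : (g : Matrix (Fin 2) (Fin 2) F) 0 0 = 1)
    (h11 : (g : Matrix (Fin 2) (Fin 2) F) 1 1 = 1) :
    ((sl2Emb U V hVU g : Matrix.SpecialLinearGroup ι F) : Matrix ι ι F) =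
      1 + (g : Matrix (Fin 2) (Fin 2) F) 0 1 • Matrix.vecMulVec (fun i => U i 0) (V 1) := by
  rw [sl2Emb_val]
  congr 1
  ext i j
  simp [Matrix.mul_apply, Fin.sum_univ_two, Matrix.vecMulVec_apply, h10, h00, h11]
  ring

theorem sl2Emb_lower (U : Matrix ι (Fin 2) F) (V : Matrix (Fin 2) ι F) (hVU : V * U = 1)
    (g : Matrix.SpecialLinearGroup (Fin 2) F)
    (h01 : (g : Matrix (Fin 2) (Fin 2) F) 0 1 = 0) (h00 : (g : Matrix (Fin 2) (Fin 2) F) 0 0 = 1)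
    (h11 : (g : Matrix (Fin 2) (Fin 2) F) 1 1 = 1) :
    ((sl2Emb U V hVU g : Matrix.SpecialLinearGroup ι F) : Matrix ι ι F) =
      1 + (g : Matrix (Fin 2) (Fin 2) F) 1 0 • Matrix.vecMulVec (fun i => U i 1) (V 0) := by
  rw [sl2Emb_val]
  congr 1
  ext i j
  simp [Matrix.mul_apply, Fin.sum_univ_two, Matrix.vecMulVec_apply, h01, h00, h11]
  ring

theorem sl2Emb_injective (U : Matrix ι (Fin 2) F) (V : Matrix (Fin 2) ι F) (hVU : V * U = 1)
    (M : Matrix.SpecialLinearGroup (Fin 2) F) (hM : sl2Emb U V hVU M = 1) : M = 1 := by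
  have h1 := congrArg (fun t : Matrix.SpecialLinearGroup ι F => (t : Matrix ι ι F)) hM
  simp only [sl2Emb_val, Matrix.SpecialLinearGroup.coe_one] at h1
  have h2 : U * ((M : Matrix (Fin 2) (Fin 2) F) - 1) * V = 0 := by
    have := congrArg (fun X : Matrix ι ι F => X - 1) h1
    simpa using this
  have h3 : ((M : Matrix (Fin 2) (Fin 2) F) - 1) =
      V * (U * ((M : Matrix (Fin 2) (Fin 2) F) - 1) * V) * U := by
    rw [Matrix.mul_assoc U, ← Matrix.mul_assoc V U, hVU, Matrix.one_mul, Matrix.mul_assoc, hVU,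
      Matrix.mul_one]
  rw [h2, Matrix.mul_zero, Matrix.zero_mul] at h3
  apply Subtype.ext
  rw [Matrix.SpecialLinearGroup.coe_one]
  exact sub_eq_zero.1 h3

theorem sl2_upper_sup_lower (F : Type*) [Field F] :
    Cfsg.upperUnipotentSL2 F ⊔ Cfsg.lowerUnipotentSL2 F = ⊤ := by
  rw [eq_top_iff]
  intro M _
  refine Cfsg.Agent.Helper5.SL_transvection_induction
    (fun M => M ∈ Cfsg.upperUnipotentSL2 F ⊔ Cfsg.lowerUnipotentSL2 F) ?_
    (fun A B hA hB => Subgroup.mul_mem _ hA hB) M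
  intro i j hij a
  fin_cases i <;> fin_cases j
  · exact absurd rfl hij
  · apply Subgroup.mem_sup_left
    apply Subgroup.subset_closure
    refine ⟨?_, ?_, ?_⟩ <;> simp [Matrix.SpecialLinearGroup.transvection_coe]
  · apply Subgroup.mem_sup_right
    apply Subgroup.subset_closure
    refine ⟨?_, ?_, ?_⟩ <;> simp [Matrix.SpecialLinearGroup.transvection_coe]
  · exact absurd rfl hij

theorem tv_isPSL2PairOver {v φ w ψ : ι → F} (h : φ ⬝ᵥ v = 0) (h' : ψ ⬝ᵥ w = 0)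
    (hα : φ ⬝ᵥ w ≠ 0) (hβ : ψ ⬝ᵥ v ≠ 0) :
    Cfsg.IsPSL2PairOver F (tvSub v φ h) (tvSub w ψ h') := by
  set U : Matrix ι (Fin 2) F := (Matrix.of ![v, w])ᵀ with hU
  set V : Matrix (Fin 2) ι F := Matrix.of ![(ψ ⬝ᵥ v)⁻¹ • ψ, (φ ⬝ᵥ w)⁻¹ • φ] with hV
  have hU0 : (fun i => U i 0) = v := rfl
  have hU1 : (fun i => U i 1) = w := rfl
  have hV0 : V 0 = (ψ ⬝ᵥ v)⁻¹ • ψ := rfl
  have hV1 : V 1 = (φ ⬝ᵥ w)⁻¹ • φ := rfl
  have hVU : V * U = 1 := by
    ext a b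
    rw [Matrix.mul_apply']
    fin_cases a <;> fin_cases b
    · show V 0 ⬝ᵥ (fun i => U i 0) = (1 : Matrix (Fin 2) (Fin 2) F) 0 0
      rw [hV0, hU0, smul_dotProduct, smul_eq_mul, inv_mul_cancel₀ hβ, Matrix.one_apply_eq]
    · show V 0 ⬝ᵥ (fun i => U i 1) = (1 : Matrix (Fin 2) (Fin 2) F) 0 1
      rw [hV0, hU1, smul_dotProduct, h', smul_zero, Matrix.one_apply_ne (by decide)]
    · show V 1 ⬝ᵥ (fun i => U i 0) = (1 : Matrix (Fin 2) (Fin 2) F) 1 0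
      rw [hV1, hU0, smul_dotProduct, h, smul_zero, Matrix.one_apply_ne (by decide)]
    · show V 1 ⬝ᵥ (fun i => U i 1) = (1 : Matrix (Fin 2) (Fin 2) F) 1 1
      rw [hV1, hU1, smul_dotProduct, smul_eq_mul, inv_mul_cancel₀ hα, Matrix.one_apply_eq]
  have hupper : (Cfsg.upperUnipotentSL2 F).map (sl2Emb U V hVU) = tvSub v φ h := by
    unfold Cfsg.upperUnipotentSL2
    rw [MonoidHom.map_closure]
    have himg : (sl2Emb U V hVU) '' {g : Matrix.SpecialLinearGroup (Fin 2) F |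
        (g : Matrix (Fin 2) (Fin 2) F) 1 0 = 0 ∧ (g : Matrix (Fin 2) (Fin 2) F) 0 0 = 1 ∧
          (g : Matrix (Fin 2) (Fin 2) F) 1 1 = 1} =
        (tvSub v φ h : Set (Matrix.SpecialLinearGroup ι F)) := by
      rw [coe_tvSub]
      ext t
      constructor
      · rintro ⟨g, ⟨h10, h00, h11⟩, rfl⟩
        refine ⟨(g : Matrix (Fin 2) (Fin 2) F) 0 1 * (φ ⬝ᵥ w)⁻¹, ?_⟩
        rw [sl2Emb_upper U V hVU g h10 h00 h11, hU0, hV1, Matrix.vecMulVec_smul, smul_smul]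
      · rintro ⟨c, hc⟩
        refine ⟨upperEl (c * (φ ⬝ᵥ w)),
          ⟨by simp [upperEl_val], by simp [upperEl_val], by simp [upperEl_val]⟩, ?_⟩
        apply Subtype.ext
        rw [sl2Emb_upper U V hVU _ (by simp [upperEl_val]) (by simp [upperEl_val])
          (by simp [upperEl_val]), hU0, hV1, Matrix.vecMulVec_smul, smul_smul, hc]
        congr 2
        simp [upperEl_val]
        field_simp
    rw [himg, Subgroup.closure_eq]
  have hlower : (Cfsg.lowerUnipotentSL2 F).map (sl2Emb U V hVU) = tvSub w ψ h' := by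
    unfold Cfsg.lowerUnipotentSL2
    rw [MonoidHom.map_closure]
    have himg : (sl2Emb U V hVU) '' {g : Matrix.SpecialLinearGroup (Fin 2) F |
        (g : Matrix (Fin 2) (Fin 2) F) 0 1 = 0 ∧ (g : Matrix (Fin 2) (Fin 2) F) 0 0 = 1 ∧
          (g : Matrix (Fin 2) (Fin 2) F) 1 1 = 1} =
        (tvSub w ψ h' : Set (Matrix.SpecialLinearGroup ι F)) := by
      rw [coe_tvSub]
      ext t
      constructor
      · rintro ⟨g, ⟨h01, h00, h11⟩, rfl⟩
        refine ⟨(g : Matrix (Fin 2) (Fin 2) F) 1 0 * (ψ ⬝ᵥ v)⁻¹, ?_⟩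
        rw [sl2Emb_lower U V hVU g h01 h00 h11, hU1, hV0, Matrix.vecMulVec_smul, smul_smul]
      · rintro ⟨c, hc⟩
        refine ⟨lowerEl (c * (ψ ⬝ᵥ v)),
          ⟨by simp [lowerEl_val], by simp [lowerEl_val], by simp [lowerEl_val]⟩, ?_⟩
        apply Subtype.ext
        rw [sl2Emb_lower U V hVU _ (by simp [lowerEl_val]) (by simp [lowerEl_val])
          (by simp [lowerEl_val]), hU1, hV0, Matrix.vecMulVec_smul, smul_smul, hc]
        congr 2
        simp [lowerEl_val]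
        field_simp
    rw [himg, Subgroup.closure_eq]
  refine ⟨sl2Emb U V hVU, ?_, ?_, hupper, hlower⟩
  · rw [MonoidHom.range_eq_map, ← sl2_upper_sup_lower F, Subgroup.map_sup, hupper, hlower]
  · intro M hM
    rw [MonoidHom.mem_ker] at hM
    rw [sl2Emb_injective U V hVU M hM]
    exact Subgroup.one_mem _

end SL2

section Aux

variable {ι : Type*} [Fintype ι] [DecidableEq ι] {F : Type*} [Field F]

omit [Fintype ι] in
theorem single_one_ne_zero' (i : ι) : (Pi.single i 1 : ι → F) ≠ 0 := by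
  intro h
  have := congrFun h i
  simp at this

theorem tvSub_ne_of_apply {v φ w ψ : ι → F} (h : φ ⬝ᵥ v = 0) (h' : ψ ⬝ᵥ w = 0) (i j : ι)
    (h1 : v i * φ j ≠ 0) (h2 : w i * ψ j = 0) : tvSub v φ h ≠ tvSub w ψ h' := by
  intro e
  have h3 : tvEl v φ h 1 ∈ tvSub w ψ h' := e ▸ tvEl_mem v φ h 1
  obtain ⟨d, hd⟩ := mem_tvSub_iff.1 h3
  have h4 := congrArg (fun t : Matrix.SpecialLinearGroup ι F => (t : Matrix ι ι F) i j) hd
  simp only [tvEl_val, Matrix.add_apply, Matrix.smul_apply, Matrix.vecMulVec_apply, smul_eq_mul,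
    h2, mul_zero, add_zero, one_mul] at h4
  exact h1 (add_left_cancel (h4.trans (add_zero _).symm))

theorem exists_vec_ne (φ ψ : ι → F) (hφ : φ ≠ 0) (hψ : ψ ≠ 0) :
    ∃ u : ι → F, φ ⬝ᵥ u ≠ 0 ∧ ψ ⬝ᵥ u ≠ 0 := by
  obtain ⟨i, hi⟩ := Function.ne_iff.1 hφ
  obtain ⟨j, hj⟩ := Function.ne_iff.1 hψ
  have hi' : φ ⬝ᵥ (Pi.single i 1 : ι → F) ≠ 0 := by
    rw [dotProduct_single_one]
    exact hi
  have hj' : ψ ⬝ᵥ (Pi.single j 1 : ι → F) ≠ 0 := by
    rw [dotProduct_single_one]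
    exact hj
  by_cases h1 : ψ ⬝ᵥ (Pi.single i 1 : ι → F) = 0
  · by_cases h2 : φ ⬝ᵥ (Pi.single j 1 : ι → F) = 0
    · refine ⟨Pi.single i 1 + Pi.single j 1, ?_, ?_⟩
      · rw [dotProduct_add, h2, add_zero]
        exact hi'
      · rw [dotProduct_add, h1, zero_add]
        exact hj'
    · exact ⟨_, h2, hj'⟩
  · exact ⟨_, hi', h1⟩

theorem exists_perp (u v φ : ι → F) (hφu : φ ⬝ᵥ u ≠ 0) (hφv : φ ⬝ᵥ v = 0) (hv : v ≠ 0) :
    ∃ χ : ι → F, χ ⬝ᵥ u = 0 ∧ χ ⬝ᵥ v ≠ 0 := by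
  obtain ⟨i, hi⟩ := Function.ne_iff.1 hv
  have hi' : v i ≠ 0 := hi
  refine ⟨(φ ⬝ᵥ u) • (Pi.single i 1 : ι → F) - ((Pi.single i 1 : ι → F) ⬝ᵥ u) • φ, ?_, ?_⟩
  · rw [sub_dotProduct, smul_dotProduct, smul_dotProduct, smul_eq_mul, smul_eq_mul, mul_comm,
      sub_self]
  · rw [sub_dotProduct, smul_dotProduct, smul_dotProduct, hφv, smul_zero, sub_zero,
      single_one_dotProduct, smul_eq_mul]
    exact mul_ne_zero hφu hi'

theorem exists_perp_two (u v w φ ψ : ι → F) (hφu : φ ⬝ᵥ u ≠ 0) (hφv : φ ⬝ᵥ v = 0) (hv : v ≠ 0)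
    (hψu : ψ ⬝ᵥ u ≠ 0) (hψw : ψ ⬝ᵥ w = 0) (hw : w ≠ 0) :
    ∃ χ : ι → F, χ ⬝ᵥ u = 0 ∧ χ ⬝ᵥ v ≠ 0 ∧ χ ⬝ᵥ w ≠ 0 := by
  obtain ⟨χ₁, h1u, h1v⟩ := exists_perp u v φ hφu hφv hv
  obtain ⟨χ₂, h2u, h2w⟩ := exists_perp u w ψ hψu hψw hw
  by_cases h1 : χ₁ ⬝ᵥ w = 0
  · by_cases h2 : χ₂ ⬝ᵥ v = 0
    · refine ⟨χ₁ + χ₂, ?_, ?_, ?_⟩
      · rw [add_dotProduct, h1u, h2u, add_zero]
      · rw [add_dotProduct, h2, add_zero]
        exact h1v
      · rw [add_dotProduct, h1, zero_add]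
        exact h2w
    · exact ⟨χ₂, h2u, h2, h2w⟩
  · exact ⟨χ₁, h1u, h1v, h1⟩

end Aux

section Class

variable (F : Type*) [Field F] (n : ℕ)

/-- The class of point-hyperplane transvection subgroups of `SL_{n+3}(F)`. -/
def tvClass : Set (Subgroup (Matrix.SpecialLinearGroup (Fin (n + 3)) F)) :=
  {A | ∃ g : Matrix.SpecialLinearGroup (Fin (n + 3)) F,
      A = Cfsg.conjBy (Subgroup.closure {t : Matrix.SpecialLinearGroup (Fin (n + 3)) F |
        ∃ c : F, (t : Matrix (Fin (n + 3)) (Fin (n + 3)) F) = Matrix.transvection 0 1 c}) g}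

theorem single_dot_single (i j : Fin (n + 3)) (hij : i ≠ j) :
    (Pi.single j 1 : Fin (n + 3) → F) ⬝ᵥ (Pi.single i 1 : Fin (n + 3) → F) = 0 := by
  rw [single_one_dotProduct, Pi.single_apply, if_neg hij.symm]

theorem fin_zero_ne_one : (0 : Fin (n + 3)) ≠ 1 := by
  intro h
  have := congrArg Fin.val h
  simp at this

theorem fin_zero_ne_two : (0 : Fin (n + 3)) ≠ 2 := by
  intro h
  have := congrArg Fin.val h
  rw [Fin.val_zero, Fin.val_two] at this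
  omega

theorem fin_one_ne_two : (1 : Fin (n + 3)) ≠ 2 := by
  intro h
  have := congrArg Fin.val h
  rw [Fin.val_one, Fin.val_two] at this
  omega

theorem closure_eq_tvSub :
    Subgroup.closure {t : Matrix.SpecialLinearGroup (Fin (n + 3)) F |
        ∃ c : F, (t : Matrix (Fin (n + 3)) (Fin (n + 3)) F) = Matrix.transvection 0 1 c} =
      tvSub (Pi.single 0 1) (Pi.single 1 1) (single_dot_single F n 0 1 (fin_zero_ne_one n)) := by
  have : {t : Matrix.SpecialLinearGroup (Fin (n + 3)) F |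
        ∃ c : F, (t : Matrix (Fin (n + 3)) (Fin (n + 3)) F) = Matrix.transvection 0 1 c} =
      (tvSub (Pi.single 0 1) (Pi.single 1 1) (single_dot_single F n 0 1 (fin_zero_ne_one n)) :
        Set (Matrix.SpecialLinearGroup (Fin (n + 3)) F)) := by
    rw [coe_tvSub]
    ext t
    constructor
    · rintro ⟨c, hc⟩
      exact ⟨c, by rw [hc, transvection01_eq, Matrix.smul_vecMulVec]⟩
    · rintro ⟨c, hc⟩
      exact ⟨c, by rw [hc, transvection01_eq, Matrix.smul_vecMulVec]⟩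
  rw [this, Subgroup.closure_eq]

theorem mem_tvClass_iff {A : Subgroup (Matrix.SpecialLinearGroup (Fin (n + 3)) F)} :
    A ∈ tvClass F n ↔ ∃ (v φ : Fin (n + 3) → F) (h : φ ⬝ᵥ v = 0),
      v ≠ 0 ∧ φ ≠ 0 ∧ A = tvSub v φ h := by
  constructor
  · rintro ⟨g, rfl⟩
    rw [closure_eq_tvSub]
    set t : Matrix.SpecialLinearGroup (Fin (n + 3)) F :=
      g * tvEl (Pi.single 0 1) (Pi.single 1 1) (single_dot_single F n 0 1 (fin_zero_ne_one n)) 1 *
        g⁻¹ with ht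
    have h0 : g⁻¹ * t * g =
        tvEl (Pi.single 0 1) (Pi.single 1 1) (single_dot_single F n 0 1 (fin_zero_ne_one n)) 1 := by
      rw [ht]
      group
    have h1 : ((g⁻¹ * t * g : Matrix.SpecialLinearGroup (Fin (n + 3)) F) :
        Matrix (Fin (n + 3)) (Fin (n + 3)) F) = Matrix.transvection 0 1 1 := by
      rw [h0, tvEl_val, transvection01_eq, one_smul, one_smul]
    obtain ⟨v, φ, hv, hφ, hφv, htv⟩ := isTv_of_conj t g 1 one_ne_zero h1
    refine ⟨v, φ, hφv, hv, hφ, ?_⟩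
    apply SetLike.coe_injective
    rw [coe_conjBy_tvSub, coe_tvSub]
    congr 1
    have h2 : (t : Matrix (Fin (n + 3)) (Fin (n + 3)) F) =
        1 + (g : Matrix (Fin (n + 3)) (Fin (n + 3)) F) *
          Matrix.vecMulVec (Pi.single 0 1) (Pi.single 1 1) *
          ((g⁻¹ : Matrix.SpecialLinearGroup (Fin (n + 3)) F) :
            Matrix (Fin (n + 3)) (Fin (n + 3)) F) := by
      rw [← conj_val_iff, h1, transvection01_eq, one_smul]
    exact add_left_cancel (h2.symm.trans htv)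
  · rintro ⟨v, φ, h, hv, hφ, rfl⟩
    obtain ⟨g, hg⟩ := conj_of_isTv (tvEl v φ h 1)
      ⟨v, φ, hv, hφ, h, by rw [tvEl_val, one_smul]⟩
    refine ⟨g, ?_⟩
    rw [closure_eq_tvSub]
    apply SetLike.coe_injective
    rw [coe_conjBy_tvSub, coe_tvSub]
    congr 1
    rw [transvection01_eq, one_smul, conj_val_iff, tvEl_val, one_smul] at hg
    exact add_left_cancel hg

theorem tvSub_mem_tvClass {v φ : Fin (n + 3) → F} (h : φ ⬝ᵥ v = 0) (hv : v ≠ 0) (hφ : φ ≠ 0) :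
    tvSub v φ h ∈ tvClass F n :=
  (mem_tvClass_iff F n).2 ⟨v, φ, h, hv, hφ, rfl⟩

theorem tv_pair {v φ w ψ : Fin (n + 3) → F} (h : φ ⬝ᵥ v = 0) (h' : ψ ⬝ᵥ w = 0) (hv : v ≠ 0)
    (hφ : φ ≠ 0) (hw : w ≠ 0) (hψ : ψ ≠ 0) :
    ⁅tvSub v φ h, tvSub w ψ h'⁆ = ⊥ ∨ Cfsg.IsRankOnePair (tvSub v φ h) (tvSub w ψ h') ∨
      Cfsg.RootCommutatorCase (tvClass F n) (tvSub v φ h) (tvSub w ψ h') := by
  by_cases hα : φ ⬝ᵥ w = 0
  · by_cases hβ : ψ ⬝ᵥ v = 0
    · exact Or.inl (tvSub_commutator_eq_bot h h' hα hβ)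
    · refine Or.inr (Or.inr (rootCommutatorCase_symm ?_))
      exact tv_rootCommutatorCase _ h' h hw hψ hv hφ hβ hα (tvSub_mem_tvClass F n hα hw hφ)
  · by_cases hβ : ψ ⬝ᵥ v = 0
    · exact Or.inr (Or.inr (tv_rootCommutatorCase _ h h' hv hφ hw hψ hα hβ
        (tvSub_mem_tvClass F n hβ hv hψ)))
    · exact Or.inr (Or.inl (tv_isRankOnePair h h' hv hφ hw hψ hα hβ))

theorem tvClass_isRootSubgroupSet : Cfsg.IsRootSubgroupSet (tvClass F n) := by
  refine ⟨?_, ?_, ?_, ?_, ?_⟩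
  · intro A hA
    obtain ⟨v, φ, h, hv, hφ, rfl⟩ := (mem_tvClass_iff F n).1 hA
    exact tvSub_comm v φ h
  · intro A hA
    obtain ⟨v, φ, h, hv, hφ, rfl⟩ := (mem_tvClass_iff F n).1 hA
    exact tvSub_ne_bot h hv hφ
  · rw [eq_top_iff]
    intro M _
    refine Cfsg.Agent.Helper5.SL_transvection_induction
      (fun M => M ∈ ⨆ A ∈ tvClass F n, A) ?_ (fun A B hA hB => Subgroup.mul_mem _ hA hB) M
    intro i j hij a
    have hmem : Matrix.SpecialLinearGroup.transvection hij a ∈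
        tvSub (Pi.single i 1) (Pi.single j 1) (single_dot_single F n i j hij) := by
      rw [← SetLike.mem_coe, coe_tvSub]
      refine ⟨a, ?_⟩
      rw [Matrix.SpecialLinearGroup.transvection_coe, single_eq_vmv, Matrix.smul_vecMulVec]
    exact Subgroup.mem_iSup_of_mem _ (Subgroup.mem_iSup_of_mem
      (tvSub_mem_tvClass F n (single_dot_single F n i j hij) (single_one_ne_zero' i)
        (single_one_ne_zero' j)) hmem)
  · rintro A ⟨g₁, rfl⟩ g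
    exact ⟨g * g₁, conjBy_conjBy _ _ _⟩
  · intro A hA B hB
    obtain ⟨v, φ, h, hv, hφ, rfl⟩ := (mem_tvClass_iff F n).1 hA
    obtain ⟨w, ψ, h', hw, hψ, rfl⟩ := (mem_tvClass_iff F n).1 hB
    exact tv_pair F n h h' hv hφ hw hψ

theorem tvClass_isConjClass : Cfsg.IsConjClassOfSubgroups (tvClass F n) := by
  refine ⟨⟨_, 1, rfl⟩, ?_⟩
  rintro A ⟨g₁, rfl⟩ B ⟨g₂, rfl⟩
  refine ⟨g₂ * g₁⁻¹, ?_⟩
  rw [conjBy_conjBy, inv_mul_cancel_right]

theorem tvClass_nondegenerate : Cfsg.IsNondegenerateRootSet (tvClass F n) := by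
  have h01 := fin_zero_ne_one n
  have h02 := fin_zero_ne_two n
  have h12 := fin_one_ne_two n
  have hne : ∀ i : Fin (n + 3), (Pi.single i 1 : Fin (n + 3) → F) ≠ 0 := single_one_ne_zero'
  have hm : ∀ (i j : Fin (n + 3)) (hij : i ≠ j),
      tvSub (Pi.single i 1) (Pi.single j 1) (single_dot_single F n i j hij) ∈ tvClass F n :=
    fun i j hij => tvSub_mem_tvClass F n _ (hne i) (hne j)
  refine ⟨⟨_, hm 0 1 h01, _, hm 0 2 h02, ?_, ?_⟩, ⟨_, hm 0 1 h01, _, hm 1 0 h01.symm, ?_⟩,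
    ⟨_, hm 0 1 h01, _, hm 1 2 h12, ?_⟩⟩
  · apply tvSub_ne_of_apply _ _ 0 1
    · simp
    · simp [h12]
  · apply tvSub_commutator_eq_bot
    · rw [single_one_dotProduct, Pi.single_apply, if_neg h01.symm]
    · rw [single_one_dotProduct, Pi.single_apply, if_neg h02.symm]
  · apply tv_isRankOnePair _ _ (hne _) (hne _) (hne _) (hne _)
    · rw [single_one_dotProduct, Pi.single_apply, if_pos rfl]
      exact one_ne_zero
    · rw [single_one_dotProduct, Pi.single_apply, if_pos rfl]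
      exact one_ne_zero
  · have hβ : (Pi.single 2 1 : Fin (n + 3) → F) ⬝ᵥ (Pi.single 0 1 : Fin (n + 3) → F) = 0 :=
      single_dot_single F n 0 2 h02
    apply tv_rootCommutatorCase _ _ _ (hne _) (hne _) (hne _) (hne _) _ hβ
      (tvSub_mem_tvClass F n hβ (hne _) (hne _))
    rw [single_one_dotProduct, Pi.single_apply, if_pos rfl]
    exact one_ne_zero

theorem tvClass_isKRoot : Cfsg.IsKRootSubgroupSet F (tvClass F n) := by
  refine ⟨tvClass_isRootSubgroupSet F n, ?_⟩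
  intro A hA B hB hp
  obtain ⟨v, φ, h, hv, hφ, rfl⟩ := (mem_tvClass_iff F n).1 hA
  obtain ⟨w, ψ, h', hw, hψ, rfl⟩ := (mem_tvClass_iff F n).1 hB
  exact tv_isPSL2PairOver h h' (tv_rankOne_dot h h' hv hφ hp)
    (tv_rankOne_dot h' h hw hψ (Cfsg.RankOnePair_symm hp))

theorem tvClass_connected :
    Cfsg.IsConnectedFamily (Cfsg.FAdj (tvClass F n)) (tvClass F n) := by
  intro A hA B hB
  obtain ⟨v, φ, h, hv, hφ, rfl⟩ := (mem_tvClass_iff F n).1 hA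
  obtain ⟨w, ψ, h', hw, hψ, rfl⟩ := (mem_tvClass_iff F n).1 hB
  obtain ⟨u, hφu, hψu⟩ := exists_vec_ne φ ψ hφ hψ
  obtain ⟨χ, hχu, hχv, hχw⟩ := exists_perp_two u v w φ ψ hφu h hv hψu h' hw
  have hu : u ≠ 0 := by
    rintro rfl
    simp at hφu
  have hχ : χ ≠ 0 := by
    rintro rfl
    simp at hχv
  have hC := tvSub_mem_tvClass F n hχu hu hχ
  exact Relation.ReflTransGen.head ⟨hA, hC, tv_isRankOnePair h hχu hv hφ hu hχ hφu hχv⟩
    (Relation.ReflTransGen.single ⟨hC, hB, tv_isRankOnePair hχu h' hu hχ hw hψ hχw hψu⟩)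

end Class

end Cfsg.Agent.Helper38
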