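import Mathlib
import Cfsg.Prelude.Def_GeometricClasses
import Cfsg.Prelude.Def_Classical
import Cfsg.Agent.Helper65.S74Defs
import Cfsg.Agent.Helper36.AltEven
import Cfsg.Agent.Helper80.TSR2TSB
import Cfsg.Agent.Helper35.TSSTDP
import Cfsg.Agent.Helper98.ELPMain
import Cfsg.Agent.Helper47.ELPT0KER
import Cfsg.Agent.Helper18.ELPSIEGISO

set_option autoImplicit false
set_option linter.unusedVariables false

/-!
# CALL S74 (helper65), stage T2B (helper38): `r = p = 2`, `⟹` of row S5974.

If `d` is even and `m ≡ 2 (mod 4)`, the Siegel element `x = [[1, A], [0, 1]]` (`A = t0 - t0ᵀ`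
alternating of rank `d`) lies in `Ω`, has `x ^ 2 = 1`, is not scalar, and fixes no nondegenerate
subspace of dimension `≡ 2 (mod 4)`.

Core (`t2b_pure`, `t2b_core`, no assumption on the characteristic): for an isometry `f` with
`f v - v ∈ U` and (`f v = v → v ∈ U`), `U` totally singular, every `f`-invariant nondegenerate
subspace `W` has `4 ∣ dim W`: with `N = f - 1`, `polar v (N v) = 0`, so `(u, v) ↦ polar u (N v)` is
alternating; it is nondegenerate on a complement `C` of `ker (N|W)` in `W`, so `dim C` is even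
(`Helper36.even_finrank_of_alt`); `ker (N|W)` and `N W` lie in the totally singular `W ⊓ U`, of
dimension `≤ dim W / 2` (`Helper80.TSR2.r2_ts_bound`), so `dim C = dim W / 2`.
-/

namespace Cfsg.Agent.Helper38.S74

open Module Cfsg Cfsg.Geo Cfsg.Agent.Helper65.S74
open scoped MatrixGroups

/-- pure linear algebra core. -/
theorem t2b_pure {F : Type*} [Field F] {V : Type*} [AddCommGroup V] [Module F V]
    [FiniteDimensional F V] (B : V →ₗ[F] V →ₗ[F] F) (N : V →ₗ[F] V)
    (halt : ∀ v, B v (N v) = 0) (W T : Submodule F V) (hNW : ∀ w ∈ W, N w ∈ W)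
    (hker : ∀ w ∈ W, N w = 0 → w ∈ T) (hran : ∀ w ∈ W, N w ∈ T)
    (hbound : 2 * finrank F T ≤ finrank F W)
    (hnd : ∀ w ∈ W, w ≠ 0 → ∃ x ∈ W, B x w ≠ 0) :
    4 ∣ finrank F W := by
  classical
  have hskew : ∀ u v, B u (N v) = - B v (N u) := by
    intro u v
    have h := halt (u + v)
    simp only [map_add, LinearMap.add_apply, halt, zero_add, add_zero] at h
    linear_combination h
  let NW : W →ₗ[F] W := N.restrict hNW
  have hNWc : ∀ w : W, ((NW w : W) : V) = N (w : V) := fun w => rfl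
  obtain ⟨C, hC⟩ := Submodule.exists_isCompl (LinearMap.ker NW)
  let β : C →ₗ[F] C →ₗ[F] F :=
    B.compl₁₂ (W.subtype ∘ₗ C.subtype) (N ∘ₗ W.subtype ∘ₗ C.subtype)
  have hβ : ∀ c c' : C, β c c' = B ((c : W) : V) (N ((c' : W) : V)) := fun c c' => rfl
  have hCeven : Even (finrank F C) := by
    refine Cfsg.Agent.Helper36.even_finrank_of_alt (finrank F C) C β ?_ ?_ rfl
    · intro c
      rw [hβ]
      exact halt _
    · intro c hc
      have hNc : N ((c : W) : V) = 0 := by
        by_contra hne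
        obtain ⟨x, hx, hx0⟩ := hnd _ (hNW _ (c : W).2) hne
        apply hx0
        have hx' : (⟨x, hx⟩ : W) ∈ LinearMap.ker NW ⊔ C := by
          rw [hC.sup_eq_top]
          exact Submodule.mem_top
        obtain ⟨k, hk, c', hc', hsum⟩ := Submodule.mem_sup.mp hx'
        have hxe : x = (k : V) + (c' : V) := by
          have h0 := congrArg Subtype.val hsum
          exact h0.symm
        rw [hxe, map_add, LinearMap.add_apply]
        have h1 : B (k : V) (N ((c : W) : V)) = 0 := by
          rw [hskew]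
          have hk0 : N (k : V) = 0 := by
            have h0 := congrArg Subtype.val (LinearMap.mem_ker.mp hk)
            exact h0
          rw [hk0, map_zero, neg_zero]
        have h2 : B (c' : V) (N ((c : W) : V)) = 0 := by
          rw [hskew]
          have h0 := hc ⟨c', hc'⟩
          rw [hβ] at h0
          rw [h0, neg_zero]
        rw [h1, h2, add_zero]
      have hck : (c : W) ∈ LinearMap.ker NW := by
        rw [LinearMap.mem_ker]
        apply Subtype.ext
        exact hNc
      have hmem : (c : W) ∈ LinearMap.ker NW ⊓ C := ⟨hck, c.2⟩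
      rw [hC.inf_eq_bot, Submodule.mem_bot] at hmem
      exact Subtype.ext hmem
  have hdim : finrank F (LinearMap.ker NW) + finrank F C = finrank F W :=
    Submodule.finrank_add_eq_of_isCompl hC
  have hrn := LinearMap.finrank_range_add_finrank_ker NW
  have hK : finrank F (LinearMap.ker NW) ≤ finrank F T := by
    have hle : (LinearMap.ker NW).map W.subtype ≤ T := by
      rintro _ ⟨k, hk, rfl⟩
      apply hker _ k.2
      have h0 := congrArg Subtype.val (LinearMap.mem_ker.mp hk)
      exact h0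
    have h1 := Submodule.finrank_mono hle
    rwa [Submodule.finrank_map_subtype_eq] at h1
  have hR : finrank F (LinearMap.range NW) ≤ finrank F T := by
    have hle : (LinearMap.range NW).map W.subtype ≤ T := by
      rintro _ ⟨_, ⟨w, rfl⟩, rfl⟩
      exact hran _ w.2
    have h1 := Submodule.finrank_mono hle
    rwa [Submodule.finrank_map_subtype_eq] at h1
  obtain ⟨j, hj⟩ := hCeven
  omega

/-- the core for a quadratic form given as a function. -/
theorem t2b_core {ι : Type} [Fintype ι] [DecidableEq ι] {F : Type*} [Field F] [Fintype F]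
    (Q : (ι → F) → F) (hQ : IsNondegenerateQuadraticForm Q)
    (f : (ι → F) →ₗ[F] (ι → F)) (hf : ∀ v, Q (f v) = Q v)
    (U : Submodule F (ι → F)) (hU : ∀ v ∈ U, Q v = 0) (h1 : ∀ v, f v - v ∈ U)
    (h2 : ∀ v, f v = v → v ∈ U)
    (W : Submodule F (ι → F)) (hW : W.map f ≤ W)
    (hnd : IsNondegenerateOn (QuadraticMap.polar Q) W) :
    4 ∣ finrank F W := by
  let B : (ι → F) →ₗ[F] (ι → F) →ₗ[F] F := LinearMap.mk₂ F (QuadraticMap.polar Q)
    hQ.polar_bilinear.add_left
    (fun c x v => by rw [hQ.polar_bilinear.smul_left, smul_eq_mul])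
    hQ.polar_bilinear.add_right
    (fun c v x => by rw [hQ.polar_bilinear.smul_right, smul_eq_mul])
  have hB : ∀ u v, B u v = QuadraticMap.polar Q u v := fun u v => rfl
  refine t2b_pure B (f - LinearMap.id) ?_ W (W ⊓ U) ?_ ?_ ?_ ?_ ?_
  · intro v
    rw [hB]
    show QuadraticMap.polar Q v (f v - v) = 0
    unfold QuadraticMap.polar
    rw [add_sub_cancel, hf, hU _ (h1 v), sub_self, sub_zero]
  · intro w hw
    exact W.sub_mem (hW ⟨w, hw, rfl⟩) hw
  · intro w hw h0
    exact ⟨hw, h2 w (sub_eq_zero.mp h0)⟩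
  · intro w hw
    exact ⟨W.sub_mem (hW ⟨w, hw, rfl⟩) hw, h1 w⟩
  · exact Cfsg.Agent.Helper80.TSR2.r2_ts_bound Q hQ W (W ⊓ U) hnd inf_le_left
      (fun w hw => hU w hw.2)
  · intro w hw hw0
    exact (hnd w hw hw0).1

variable {F : Type*} [Field F] [Fintype F]

open Cfsg.Agent.Helper98.ELP in
/-- T2B [BIG, NEW] (`r = p = 2`, `⟹`): `d` even, `m ≡ 2 (4)`: the Siegel element
`x = [[1, A], [0, 1]]`, `A` alternating of rank `d` (`x ∈ Ω`: `Cfsg.Agent.Helper98.ELP.sieg_mem_omega`,
all characteristics).  `polar v (x v) = 0` for all `v`, `ker (x - 1) = range (x - 1)`; for an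
invariant nondegenerate `W`: `rank ((x - 1)|W) = dim W / 2` and the form `(u, v) ↦ polar u ((x-1) v)`
is alternating nondegenerate on `W / ker`, so `dim W / 2` is even: no invariant nondegenerate
subspace of dimension `≡ 2 (4)`. -/
theorem s74_two_even_bad {p : ℕ} [Fact p.Prime] [CharP F p] {q : ℕ} (hq : Fintype.card F = q)
    (d m : ℕ) (hd : 4 ≤ d) (hm : 2 ≤ m) (hme : Even m) (hmd : m < d) (hp2 : p = 2)
    (hall : AllHyp (Cfsg.quadFormPlus d F) 2 m) :
    (2 * d) % 4 = 2 ∨ m % 4 = 0 ∨ q % 4 = 1 := by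
  classical
  by_contra hcon
  have hm4 : m % 4 ≠ 0 := fun h => hcon (Or.inr (Or.inl h))
  have hde : (2 * d) % 4 ≠ 2 := fun h => hcon (Or.inl h)
  have hd2 : 2 * (d / 2) = d := by omega
  obtain ⟨hQ, -⟩ := Cfsg.Agent.Helper35.TS5973.ts_std_plus (F := F) d
  have hΩ : sieg (t0 d F) ∈ Cfsg.Geo.omegaGL (Cfsg.quadFormPlus d F) := by
    have h := sieg_mem_omega (n := Fin d) (F := F) (by simpa using (by omega : 3 ≤ d)) (t0 d F)
    exact h
  have h0 : p • t0 d F = 0 := by
    ext a b
    simp [Matrix.smul_apply]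
  rw [hp2] at h0
  have hsq : ∃ z : F, ((sieg (t0 d F) ^ 2 : GL (Fin d ⊕ Fin d) F) :
      Matrix (Fin d ⊕ Fin d) (Fin d ⊕ Fin d) F) =
      z • (1 : Matrix (Fin d ⊕ Fin d) (Fin d ⊕ Fin d) F) := by
    refine ⟨1, ?_⟩
    rw [Cfsg.Agent.Helper74.ELP.sieg_pow, h0, sieg_zero, one_smul]
    rfl
  have hns := sieg_nonscalar (t0 d F) (Cfsg.Agent.Helper74.ELP.t0_ne (F := F) d (by omega))
  obtain ⟨W, ⟨hWdim, hWnd, -⟩, hWinv⟩ :=
    (invHyp_iff _ _ _).mp (hall (sieg (t0 d F)) hΩ hsq hns)
  have h4 : 4 ∣ finrank F W := by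
    refine t2b_core (Cfsg.quadFormPlus d F) hQ (Matrix.toLin' (siegM (t0 d F))) ?_
      (subU (Fin d) F) ?_ ?_ ?_ W hWinv hWnd
    · intro v
      rw [Matrix.toLin'_apply]
      exact (Cfsg.Agent.Helper18.ELP.sieg_mem_iso (t0 d F)) v v
    · intro v hv
      unfold Cfsg.quadFormPlus
      refine Finset.sum_eq_zero fun i _ => ?_
      rw [(mem_subU v).1 hv i, mul_zero]
    · intro v
      rw [mem_subU]
      intro j
      rw [Matrix.toLin'_apply, Pi.sub_apply, Cfsg.Agent.Helper47.ELP.siegM_mulVec_inr, sub_self]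
    · intro v hv
      rw [Matrix.toLin'_apply] at hv
      rw [mem_subU]
      intro j
      have hS : Matrix.mulVec (t0 d F - (t0 d F).transpose) (fun j => v (.inr j)) = 0 := by
        funext i
        have h5 := congrFun hv (.inl i)
        rw [Cfsg.Agent.Helper47.ELP.siegM_mulVec_inl] at h5
        exact add_left_cancel (h5.trans (add_zero _).symm)
      exact Cfsg.Agent.Helper47.ELP.t0_ker d _ hS j (by have := j.2; omega)
  rw [hWdim] at h4
  omega

end Cfsg.Agent.Helper38.S74
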