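import Mathlib
import Cfsg.Prelude.Def_GeometricClasses
import Cfsg.Prelude.Def_Classical
import Cfsg.Agent.Helper96.OHDefs
import Cfsg.Agent.Helper70.OHOPLANES
import Cfsg.Agent.Helper65.OSubAll

set_option autoImplicit false
set_option linter.unusedVariables false
set_option linter.unusedSectionVars false

/-!
# CALL S74 (helper65), stage T2G: BLK (helper38)

Characteristic `2`, `T` an isometry of the nondegenerate quadratic form `Q` with `T * T = 1`.
Every `T`-invariant nondegenerate `U ≠ ⊥` contains a `T`-invariant nondegenerate block of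
dimension `2`, or of dimension `4` and plus type:
* some `v ∈ U` with `polar v (T v) ≠ 0`: the plane `⟨v, T v⟩`;
* `T = 1` on `U`: any nondegenerate plane (`Helper65.OHAll.o_plane_char2`);
* otherwise `T v ≠ v`, `w ∈ U` with `polar (T v + v) w ≠ 0`: `⟨v, T v, w, T w⟩`, Gram matrix
  `[[0, J], [J, 0]]`, `J = [[a, b], [b, a]]`, `a + b ≠ 0`; totally singular plane
  `⟨v + T v, w + T w⟩`.
-/

namespace Cfsg.Agent.Helper38.S74

open Module Cfsg Cfsg.Geo Cfsg.Agent.Helper96.OH

variable {ι : Type} [Fintype ι] [DecidableEq ι] {F : Type*} [Field F]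

/-- GRAM: a finite family with nonsingular Gram matrix spans a nondegenerate subspace of
dimension `n`. -/
theorem t2g_span_nd (Q : (ι → F) → F) (hQ : IsNondegenerateQuadraticForm Q) {n : ℕ}
    (e : Fin n → (ι → F))
    (hG : ∀ c : Fin n → F, (∀ j, QuadraticMap.polar Q (∑ i, c i • e i) (e j) = 0) → c = 0) :
    ONd Q (Submodule.span F (Set.range e)) ∧
      finrank F (Submodule.span F (Set.range e)) = n := by
  have hz : ∀ v : ι → F, QuadraticMap.polar Q 0 v = 0 := fun v => by
    have h := hQ.polar_bilinear.smul_left 0 0 v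
    simpa using h
  constructor
  · intro w hw hw0
    obtain ⟨c, rfl⟩ := (Submodule.mem_span_range_iff_exists_fun F).mp hw
    have hc : ¬ ∀ j, QuadraticMap.polar Q (∑ i, c i • e i) (e j) = 0 := by
      intro h
      apply hw0
      rw [hG c h]
      simp
    obtain ⟨j, hj⟩ : ∃ j, QuadraticMap.polar Q (∑ i, c i • e i) (e j) ≠ 0 := by
      by_contra hcon
      apply hc
      intro j
      by_contra h
      exact hcon ⟨j, h⟩
    have hej : e j ∈ Submodule.span F (Set.range e) := Submodule.subset_span ⟨j, rfl⟩
    exact ⟨⟨e j, hej, by rw [QuadraticMap.polar_comm]; exact hj⟩, ⟨e j, hej, hj⟩⟩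
  · have hli : LinearIndependent F e := by
      rw [Fintype.linearIndependent_iff]
      intro c hc i
      have h := hG c (fun j => by rw [hc]; exact hz _)
      rw [h]
      rfl
    rw [finrank_span_eq_card hli, Fintype.card_fin]

/-- BLK. -/
theorem t2g_blk (Q : (ι → F) → F) (hQ : IsNondegenerateQuadraticForm Q) (h2 : (2 : F) = 0)
    (T : Module.End F (ι → F)) (hT : OPres Q T) (hT2 : T * T = 1)
    (U : Submodule F (ι → F)) (hUT : U.map T ≤ U) (hU : ONd Q U) (hU0 : U ≠ ⊥) :
    ∃ B : Submodule F (ι → F), B ≤ U ∧ B.map T ≤ B ∧ ONd Q B ∧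
      (finrank F B = 2 ∨ (finrank F B = 4 ∧ OPl Q B)) := by
  classical
  have pl_add_l : ∀ x y z : ι → F, QuadraticMap.polar Q (x + y) z =
      QuadraticMap.polar Q x z + QuadraticMap.polar Q y z := hQ.polar_bilinear.add_left
  have pl_smul_l : ∀ (c : F) (x z : ι → F), QuadraticMap.polar Q (c • x) z =
      c * QuadraticMap.polar Q x z := hQ.polar_bilinear.smul_left
  have pl_add_r : ∀ z x y : ι → F, QuadraticMap.polar Q z (x + y) =
      QuadraticMap.polar Q z x + QuadraticMap.polar Q z y := hQ.polar_bilinear.add_right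
  have pl_smul_r : ∀ (c : F) (z x : ι → F), QuadraticMap.polar Q z (c • x) =
      c * QuadraticMap.polar Q z x := hQ.polar_bilinear.smul_right
  have pl_comm : ∀ x y : ι → F, QuadraticMap.polar Q x y = QuadraticMap.polar Q y x :=
    fun x y => QuadraticMap.polar_comm Q x y
  have pl_self : ∀ x : ι → F, QuadraticMap.polar Q x x = 0 := fun x => by
    have h := pB_self Q hQ x
    rw [pB_apply, h2, zero_mul] at h
    exact h
  have hz : ∀ v : ι → F, QuadraticMap.polar Q 0 v = 0 := fun v => by
    have h := pl_smul_l 0 0 v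
    simpa using h
  have hTT : ∀ v, T (T v) = v := fun v => by
    have h : (T * T) v = (1 : Module.End F (ι → F)) v := by rw [hT2]
    exact h
  have hTpol : ∀ u v, QuadraticMap.polar Q (T u) (T v) = QuadraticMap.polar Q u v := by
    intro u v
    unfold QuadraticMap.polar
    rw [← map_add, hT, hT, hT]
  have hTU : ∀ v ∈ U, T v ∈ U := fun v hv => hUT ⟨v, hv, rfl⟩
  by_cases ha : ∃ v ∈ U, QuadraticMap.polar Q v (T v) ≠ 0
  · obtain ⟨v, hvU, hβ⟩ := ha
    have hβ' : QuadraticMap.polar Q (T v) v ≠ 0 := by
      rw [pl_comm]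
      exact hβ
    obtain ⟨hnd, hfr⟩ := t2g_span_nd Q hQ ![v, T v] (by
      intro c hc
      have h0 : QuadraticMap.polar Q (c 0 • v + c 1 • T v) v = 0 := by
        have h := hc 0
        rw [Fin.sum_univ_two] at h
        exact h
      have h1 : QuadraticMap.polar Q (c 0 • v + c 1 • T v) (T v) = 0 := by
        have h := hc 1
        rw [Fin.sum_univ_two] at h
        exact h
      rw [pl_add_l, pl_smul_l, pl_smul_l, pl_self, mul_zero, zero_add] at h0
      rw [pl_add_l, pl_smul_l, pl_smul_l, pl_self, mul_zero, add_zero] at h1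
      funext i
      fin_cases i
      · exact (mul_eq_zero.mp h1).resolve_right hβ
      · exact (mul_eq_zero.mp h0).resolve_right hβ')
    refine ⟨Submodule.span F (Set.range ![v, T v]), ?_, ?_, hnd, Or.inl hfr⟩
    · rw [Submodule.span_le]
      rintro _ ⟨i, rfl⟩
      fin_cases i
      · exact hvU
      · exact hTU v hvU
    · rw [Submodule.map_span, Submodule.span_le]
      rintro _ ⟨_, ⟨i, rfl⟩, rfl⟩
      fin_cases i
      · exact Submodule.subset_span ⟨1, rfl⟩
      · show T (T v) ∈ _
        rw [hTT]
        exact Submodule.subset_span ⟨0, rfl⟩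
  · have ha' : ∀ v ∈ U, QuadraticMap.polar Q v (T v) = 0 :=
      fun v hv => by_contra fun h => ha ⟨v, hv, h⟩
    by_cases hc : ∀ v ∈ U, T v = v
    · obtain ⟨E, hEU, hE, hEd⟩ := Cfsg.Agent.Helper65.OHAll.o_plane_char2 Q hQ h2 U hU hU0
      refine ⟨E, hEU, ?_, hE, Or.inl hEd⟩
      rintro _ ⟨v, hv, rfl⟩
      rw [hc v (hEU hv)]
      exact hv
    · obtain ⟨v, hvU, hTv⟩ : ∃ v ∈ U, T v ≠ v := by
        by_contra hcon
        apply hc
        intro v hv
        by_contra h
        exact hcon ⟨v, hv, h⟩
      have hvv : ∀ y : ι → F, y + y = 0 := fun y => by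
        rw [← two_smul F y, h2, zero_smul]
      have hu0 : T v + v ≠ 0 := by
        intro h
        apply hTv
        have h1 : T v = -v := eq_neg_of_add_eq_zero_left h
        rw [h1]
        exact neg_eq_of_add_eq_zero_left (hvv v)
      have huU : T v + v ∈ U := U.add_mem (hTU v hvU) hvU
      obtain ⟨-, w, hwU, hw⟩ := hU (T v + v) huU hu0
      obtain ⟨a, hadef⟩ : ∃ a, a = QuadraticMap.polar Q v w := ⟨_, rfl⟩
      obtain ⟨b, hbdef⟩ : ∃ b, b = QuadraticMap.polar Q v (T w) := ⟨_, rfl⟩
      have e_vw : QuadraticMap.polar Q v w = a := hadef.symm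
      have e_vTw : QuadraticMap.polar Q v (T w) = b := hbdef.symm
      have e_Tvw : QuadraticMap.polar Q (T v) w = b := by
        rw [← hTpol (T v) w, hTT, e_vTw]
      have e_TvTw : QuadraticMap.polar Q (T v) (T w) = a := by
        rw [hTpol, e_vw]
      have e_wv : QuadraticMap.polar Q w v = a := by rw [pl_comm, e_vw]
      have e_Twv : QuadraticMap.polar Q (T w) v = b := by rw [pl_comm, e_vTw]
      have e_wTv : QuadraticMap.polar Q w (T v) = b := by rw [pl_comm, e_Tvw]
      have e_TwTv : QuadraticMap.polar Q (T w) (T v) = a := by rw [pl_comm, e_TvTw]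
      have e_vTv : QuadraticMap.polar Q v (T v) = 0 := ha' v hvU
      have e_Tvv : QuadraticMap.polar Q (T v) v = 0 := by rw [pl_comm, e_vTv]
      have e_wTw : QuadraticMap.polar Q w (T w) = 0 := ha' w hwU
      have e_Tww : QuadraticMap.polar Q (T w) w = 0 := by rw [pl_comm, e_wTw]
      have hs : a + b ≠ 0 := by
        rw [pl_add_l, e_Tvw, e_vw] at hw
        rwa [add_comm] at hw
      have hs' : a - b ≠ 0 := by
        have h : a - b = a + b := by linear_combination (-b) * h2
        rw [h]
        exact hs
      have hne : (a + b) * (a - b) ≠ 0 := mul_ne_zero hs hs'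
      have pl4 : ∀ (c0 c1 c2 c3 : F) (x0 x1 x2 x3 y : ι → F),
          QuadraticMap.polar Q (c0 • x0 + c1 • x1 + c2 • x2 + c3 • x3) y =
            c0 * QuadraticMap.polar Q x0 y + c1 * QuadraticMap.polar Q x1 y +
              c2 * QuadraticMap.polar Q x2 y + c3 * QuadraticMap.polar Q x3 y := by
        intro c0 c1 c2 c3 x0 x1 x2 x3 y
        rw [pl_add_l, pl_add_l, pl_add_l, pl_smul_l, pl_smul_l, pl_smul_l, pl_smul_l]
      obtain ⟨hnd, hfr⟩ := t2g_span_nd Q hQ ![v, T v, w, T w] (by
        intro c hc
        have h0 : QuadraticMap.polar Q (c 0 • v + c 1 • T v + c 2 • w + c 3 • T w) v = 0 := by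
          have h := hc 0
          rw [Fin.sum_univ_four] at h
          exact h
        have h1 : QuadraticMap.polar Q (c 0 • v + c 1 • T v + c 2 • w + c 3 • T w) (T v) = 0 := by
          have h := hc 1
          rw [Fin.sum_univ_four] at h
          exact h
        have h2' : QuadraticMap.polar Q (c 0 • v + c 1 • T v + c 2 • w + c 3 • T w) w = 0 := by
          have h := hc 2
          rw [Fin.sum_univ_four] at h
          exact h
        have h3 : QuadraticMap.polar Q (c 0 • v + c 1 • T v + c 2 • w + c 3 • T w) (T w) = 0 := by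
          have h := hc 3
          rw [Fin.sum_univ_four] at h
          exact h
        rw [pl4, pl_self, e_Tvv, e_wv, e_Twv] at h0
        rw [pl4, e_vTv, pl_self, e_wTv, e_TwTv] at h1
        rw [pl4, e_vw, e_Tvw, pl_self, e_Tww] at h2'
        rw [pl4, e_vTw, e_TvTw, e_wTw, pl_self] at h3
        have k0 : c 0 * ((a + b) * (a - b)) = 0 := by linear_combination a * h2' - b * h3
        have k1 : c 1 * ((a + b) * (a - b)) = 0 := by linear_combination a * h3 - b * h2'
        have k2 : c 2 * ((a + b) * (a - b)) = 0 := by linear_combination a * h0 - b * h1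
        have k3 : c 3 * ((a + b) * (a - b)) = 0 := by linear_combination a * h1 - b * h0
        funext i
        fin_cases i
        · exact (mul_eq_zero.mp k0).resolve_right hne
        · exact (mul_eq_zero.mp k1).resolve_right hne
        · exact (mul_eq_zero.mp k2).resolve_right hne
        · exact (mul_eq_zero.mp k3).resolve_right hne)
      obtain ⟨P, hPdef⟩ : ∃ P : Submodule F (ι → F),
          P = Submodule.span F (Set.range ![v, T v, w, T w]) := ⟨_, rfl⟩
      rw [← hPdef] at hnd hfr
      have hvP : v ∈ P := by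
        rw [hPdef]
        exact Submodule.subset_span ⟨0, rfl⟩
      have hTvP : T v ∈ P := by
        rw [hPdef]
        exact Submodule.subset_span ⟨1, rfl⟩
      have hwP : w ∈ P := by
        rw [hPdef]
        exact Submodule.subset_span ⟨2, rfl⟩
      have hTwP : T w ∈ P := by
        rw [hPdef]
        exact Submodule.subset_span ⟨3, rfl⟩
      refine ⟨P, ?_, ?_, hnd, Or.inr ⟨hfr, ?_⟩⟩
      · rw [hPdef, Submodule.span_le]
        rintro _ ⟨i, rfl⟩
        fin_cases i
        · exact hvU
        · exact hTU v hvU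
        · exact hwU
        · exact hTU w hwU
      · rw [hPdef, Submodule.map_span, Submodule.span_le, ← hPdef]
        rintro _ ⟨_, ⟨i, rfl⟩, rfl⟩
        fin_cases i
        · exact hTvP
        · show T (T v) ∈ P
          rw [hTT]
          exact hvP
        · exact hTwP
        · show T (T w) ∈ P
          rw [hTT]
          exact hwP
      · have hQx : ∀ y ∈ U, Q (y + T y) = 0 := by
          intro y hy
          rw [q_add Q, hT, ha' y hy, add_zero, ← two_mul, h2, zero_mul]
        have hxy : QuadraticMap.polar Q (v + T v) (w + T w) = 0 := by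
          rw [pl_add_l, pl_add_r, pl_add_r, e_vw, e_vTw, e_Tvw, e_TvTw]
          linear_combination (a + b) * h2
        have hfr2 := Cfsg.Agent.Helper70.OH5992.oh_finrank_span_pair (F := F) (v + T v)
          (w + T w) (by
            intro s t hst
            have h1 : QuadraticMap.polar Q (s • (v + T v) + t • (w + T w)) w = 0 := by
              rw [hst]
              exact hz w
            have h2' : QuadraticMap.polar Q (s • (v + T v) + t • (w + T w)) v = 0 := by
              rw [hst]
              exact hz v
            rw [pl_add_l, pl_smul_l, pl_smul_l, pl_add_l, pl_add_l, e_vw, e_Tvw, pl_self,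
              e_Tww] at h1
            rw [pl_add_l, pl_smul_l, pl_smul_l, pl_add_l, pl_add_l, pl_self, e_Tvv, e_wv,
              e_Twv] at h2'
            have hs0 : s * (a + b) = 0 := by linear_combination h1
            have ht0 : t * (a + b) = 0 := by linear_combination h2'
            exact ⟨(mul_eq_zero.mp hs0).resolve_right hs, (mul_eq_zero.mp ht0).resolve_right hs⟩)
        refine ⟨Submodule.span F {v + T v, w + T w}, ?_, ?_, ?_⟩
        · rw [Submodule.span_le]
          intro y hy
          rcases hy with rfl | rfl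
          · exact P.add_mem hvP hTvP
          · exact P.add_mem hwP hTwP
        · intro y hy
          obtain ⟨s, t, rfl⟩ := Submodule.mem_span_pair.mp hy
          rw [q_add Q, hQ.smul, hQ.smul, hQx v hvU, hQx w hwU, pl_smul_l, pl_smul_r, hxy]
          ring
        · omega

end Cfsg.Agent.Helper38.S74
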