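import Mathlib
import Cfsg.Prelude.Def_GeometricClasses
import Cfsg.Prelude.Def_Classical
import Cfsg.Agent.Helper31.OHOPERP
import Cfsg.Agent.Helper33.OType
import Cfsg.Agent.Helper96.OHDefs

set_option autoImplicit false
set_option linter.unusedVariables false

/-!
# CALL S74 (helper65), stage T2G: FOUR and CORE from BLK as a hypothesis (helper38)

Setting: `Q` a nondegenerate quadratic form, `T` an isometry with `T * T = 1`.
`hblk` (BLK): every `T`-invariant nondegenerate `U ≠ ⊥` contains a `T`-invariant nondegenerate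
block of dimension `2`, or of dimension `4` and plus type.

* `t2g_sup`: orthogonal sum of two invariant nondegenerate even-dimensional subspaces of the
  same type: invariant, nondegenerate, plus type, dimensions add.
* `t2g_four` (FOUR): an invariant nondegenerate plus-type `U` of dimension `≥ 4` contains an
  invariant nondegenerate plus-type `4`-space (peel three blocks; two of three planes have the
  same type).
* `t2g_core_of_blk` (CORE): an invariant nondegenerate plus-type `U` contains invariant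
  nondegenerate plus-type subspaces of every dimension `4 k ≤ dim U`.
Generic in `Q` and the characteristic (only BLK needs characteristic `2`).
-/

namespace Cfsg.Agent.Helper38.S74

open Module Cfsg Cfsg.Geo Cfsg.Agent.Helper96.OH

variable {ι : Type} [Fintype ι] [DecidableEq ι] {F : Type*} [Field F] [Fintype F]

/-- orthogonal sum of invariant nondegenerate even-dimensional subspaces of the same type. -/
theorem t2g_sup (Q : (ι → F) → F) (hQ : IsNondegenerateQuadraticForm Q)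
    (T : Module.End F (ι → F)) (W W' : Submodule F (ι → F))
    (hWT : W.map T ≤ W) (hW'T : W'.map T ≤ W') (hW : ONd Q W) (hW' : ONd Q W')
    (horth : OOrth Q W W') (hev : Even (finrank F W)) (hev' : Even (finrank F W'))
    (hty : OPl Q W ↔ OPl Q W') :
    (W ⊔ W').map T ≤ W ⊔ W' ∧ ONd Q (W ⊔ W') ∧ OPl Q (W ⊔ W') ∧
      finrank F ↥(W ⊔ W') = finrank F W + finrank F W' := by
  refine ⟨?_, Cfsg.Agent.Helper33.OType.nondeg_sup Q hQ W W' hW hW' horth,
    (Cfsg.Agent.Helper33.o_type_mul Q hQ W W' hW hW' horth hev hev').mpr hty,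
    Cfsg.Agent.Helper33.OType.finrank_sup_of_orth Q W W' hW horth⟩
  rw [Submodule.map_sup]
  exact sup_le_sup hWT hW'T

/-- FOUR. -/
theorem t2g_four (Q : (ι → F) → F) (hQ : IsNondegenerateQuadraticForm Q)
    (T : Module.End F (ι → F)) (hT : OPres Q T) (hT2 : T * T = 1)
    (hblk : ∀ U : Submodule F (ι → F), U.map T ≤ U → ONd Q U → U ≠ ⊥ →
      ∃ B : Submodule F (ι → F), B ≤ U ∧ B.map T ≤ B ∧ ONd Q B ∧
        (finrank F B = 2 ∨ (finrank F B = 4 ∧ OPl Q B)))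
    (U : Submodule F (ι → F)) (hUT : U.map T ≤ U) (hU : ONd Q U) (hUp : OPl Q U)
    (h4 : 4 ≤ finrank F U) :
    ∃ B : Submodule F (ι → F), B ≤ U ∧ B.map T ≤ B ∧ ONd Q B ∧ OPl Q B ∧ finrank F B = 4 := by
  have hTr : T ^ 2 = 1 := by
    rw [pow_two]
    exact hT2
  have hUev : Even (finrank F U) := by
    obtain ⟨U', -, -, h⟩ := hUp
    exact ⟨finrank F U', by omega⟩
  by_cases h4' : finrank F U = 4
  · exact ⟨U, le_refl _, hUT, hU, hUp, h4'⟩
  have h6 : 6 ≤ finrank F U := by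
    obtain ⟨j, hj⟩ := hUev
    omega
  have hne : ∀ P : Submodule F (ι → F), 0 < finrank F P → P ≠ ⊥ := by
    intro P hP h
    rw [h, finrank_bot] at hP
    exact lt_irrefl _ hP
  have ev2 : ∀ B : Submodule F (ι → F), finrank F B = 2 → Even (finrank F B) := by
    intro B h
    rw [h]
    exact ⟨1, rfl⟩
  obtain ⟨B1, hB1U, hB1T, hB1, hB1d⟩ := hblk U hUT hU (hne U (by omega))
  rcases hB1d with hB1d | ⟨hB1d, hB1p⟩
  swap
  · exact ⟨B1, hB1U, hB1T, hB1, hB1p, hB1d⟩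
  obtain ⟨P1, hP1U, hP1T, hP1, -, -, ho1, hd1⟩ :=
    Cfsg.Agent.Helper31.OH5992.o_perp Q hQ T hT 2 (by norm_num) hTr U B1 hU hB1 hB1U hUT hB1T
  obtain ⟨B2, hB2P, hB2T, hB2, hB2d⟩ := hblk P1 hP1T hP1 (hne P1 (by omega))
  rcases hB2d with hB2d | ⟨hB2d, hB2p⟩
  swap
  · exact ⟨B2, hB2P.trans hP1U, hB2T, hB2, hB2p, hB2d⟩
  obtain ⟨P2, hP2P, hP2T, hP2, -, -, ho2, hd2⟩ :=
    Cfsg.Agent.Helper31.OH5992.o_perp Q hQ T hT 2 (by norm_num) hTr P1 B2 hP1 hB2 hB2P hP1T hB2T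
  obtain ⟨B3, hB3P, hB3T, hB3, hB3d⟩ := hblk P2 hP2T hP2 (hne P2 (by omega))
  rcases hB3d with hB3d | ⟨hB3d, hB3p⟩
  swap
  · exact ⟨B3, (hB3P.trans hP2P).trans hP1U, hB3T, hB3, hB3p, hB3d⟩
  have ho12 : OOrth Q B1 B2 := fun u hu v hv => ho1 u hu v (hB2P hv)
  have ho13 : OOrth Q B1 B3 := fun u hu v hv => ho1 u hu v (hP2P (hB3P hv))
  have ho23 : OOrth Q B2 B3 := fun u hu v hv => ho2 u hu v (hB3P hv)
  have hB2U : B2 ≤ U := hB2P.trans hP1U
  have hB3U : B3 ≤ U := (hB3P.trans hP2P).trans hP1U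
  by_cases h12 : OPl Q B1 ↔ OPl Q B2
  · obtain ⟨a, b, c, e⟩ := t2g_sup Q hQ T B1 B2 hB1T hB2T hB1 hB2 ho12 (ev2 _ hB1d) (ev2 _ hB2d) h12
    exact ⟨B1 ⊔ B2, sup_le hB1U hB2U, a, b, c, by rw [e, hB1d, hB2d]⟩
  by_cases h13 : OPl Q B1 ↔ OPl Q B3
  · obtain ⟨a, b, c, e⟩ := t2g_sup Q hQ T B1 B3 hB1T hB3T hB1 hB3 ho13 (ev2 _ hB1d) (ev2 _ hB3d) h13
    exact ⟨B1 ⊔ B3, sup_le hB1U hB3U, a, b, c, by rw [e, hB1d, hB3d]⟩
  · have h23 : OPl Q B2 ↔ OPl Q B3 := by tauto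
    obtain ⟨a, b, c, e⟩ := t2g_sup Q hQ T B2 B3 hB2T hB3T hB2 hB3 ho23 (ev2 _ hB2d) (ev2 _ hB3d) h23
    exact ⟨B2 ⊔ B3, sup_le hB2U hB3U, a, b, c, by rw [e, hB2d, hB3d]⟩

/-- CORE from BLK. -/
theorem t2g_core_of_blk (Q : (ι → F) → F) (hQ : IsNondegenerateQuadraticForm Q)
    (T : Module.End F (ι → F)) (hT : OPres Q T) (hT2 : T * T = 1)
    (hblk : ∀ U : Submodule F (ι → F), U.map T ≤ U → ONd Q U → U ≠ ⊥ →
      ∃ B : Submodule F (ι → F), B ≤ U ∧ B.map T ≤ B ∧ ONd Q B ∧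
        (finrank F B = 2 ∨ (finrank F B = 4 ∧ OPl Q B)))
    (U : Submodule F (ι → F)) (hUT : U.map T ≤ U) (hU : ONd Q U) (hUp : OPl Q U) :
    ∀ k : ℕ, 4 * k ≤ finrank F U → ∃ W : Submodule F (ι → F),
      W ≤ U ∧ W.map T ≤ W ∧ ONd Q W ∧ OPl Q W ∧ finrank F W = 4 * k := by
  have hTr : T ^ 2 = 1 := by
    rw [pow_two]
    exact hT2
  have hUev : Even (finrank F U) := by
    obtain ⟨U', -, -, h⟩ := hUp
    exact ⟨finrank F U', by omega⟩
  intro k
  induction k with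
  | zero =>
    intro _
    refine ⟨⊥, bot_le, ?_, ?_, Cfsg.Agent.Helper33.o_plus_bot Q hQ, by simp⟩
    · rw [Submodule.map_bot]
    · intro w hw hw0
      exact absurd ((Submodule.mem_bot F).mp hw) hw0
  | succ k ih =>
    intro hk
    obtain ⟨W, hWU, hWT, hW, hWp, hWd⟩ := ih (by omega)
    obtain ⟨P, hPU, hPT, hP, -, hsup, ho, hd⟩ :=
      Cfsg.Agent.Helper31.OH5992.o_perp Q hQ T hT 2 (by norm_num) hTr U W hU hW hWU hUT hWT
    have hPev : Even (finrank F P) := by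
      obtain ⟨j, hj⟩ := hUev
      exact ⟨j - 2 * k, by omega⟩
    have hWev : Even (finrank F W) := ⟨2 * k, by omega⟩
    have hmul := Cfsg.Agent.Helper33.o_type_mul Q hQ W P hW hP ho hWev hPev
    rw [hsup] at hmul
    have hPp : OPl Q P := (hmul.mp hUp).mp hWp
    obtain ⟨B, hBP, hBT, hB, hBp, hBd⟩ := t2g_four Q hQ T hT hT2 hblk P hPT hP hPp (by omega)
    have hoB : OOrth Q W B := fun u hu v hv => ho u hu v (hBP hv)
    obtain ⟨a, b, c, e⟩ := t2g_sup Q hQ T W B hWT hBT hW hB hoB hWev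
      (by rw [hBd]; exact ⟨2, rfl⟩) ⟨fun _ => hBp, fun _ => hWp⟩
    exact ⟨W ⊔ B, sup_le hWU (hBP.trans hPU), a, b, c, by rw [e, hWd, hBd]; ring⟩

end Cfsg.Agent.Helper38.S74
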