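import Mathlib
import Cfsg.Prelude.Def_GeometricClasses
import Cfsg.Prelude.Def_Classical
import Cfsg.Agent.Helper65.S74Defs
import Cfsg.Agent.Helper35.TSSTDP
import Cfsg.Agent.Helper90.TSR2Main
import Cfsg.Agent.Helper31.OHOPERP
import Cfsg.Agent.Helper33.OType
import Cfsg.Agent.Helper96.OHDefs

set_option autoImplicit false
set_option linter.unusedVariables false

/-!
# CALL S74 (helper65), stage T2G (`r = p = 2`, `⟸`): the FINAL step (helper38)

`t2g_final`: from CORE at `U = ⊤` (invariant nondegenerate plus-type subspaces of every dimension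
`4 k ≤ 2 d` for an isometry `T` with `T * T = 1`) to an invariant hyperbolic `m`-space:
`m ≡ 0 (4)`: CORE with `k = m / 4`; `d` odd, `m ≡ 2 (4)`: the orthogonal complement of a CORE
space of dimension `2 d - m` (plus type by `Helper33.OType.o_type_mul`).

`t2g_stage_of_core`: the stage `s74_two_even_good` from CORE as a hypothesis (`x ∈ Ω` gives an
isometry matrix `M` with `M * M = z • 1`, `z = ± 1 = 1` in characteristic `2`).
-/

namespace Cfsg.Agent.Helper38.S74

open Module Cfsg Cfsg.Geo Cfsg.Agent.Helper65.S74 Cfsg.Agent.Helper96.OH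
open scoped MatrixGroups

/-- FINAL, generic: from CORE at `U = ⊤`. -/
theorem t2g_final {ι : Type} [Fintype ι] [DecidableEq ι] {F : Type*} [Field F] [Fintype F]
    (Q : (ι → F) → F) (hQ : IsNondegenerateQuadraticForm Q) (hplus : IsPlusTypeOn Q ⊤)
    (d m : ℕ) (hcard : Fintype.card ι = 2 * d) (hme : Even m) (hmd : m ≤ 2 * d)
    (hcond : (2 * d) % 4 = 2 ∨ m % 4 = 0)
    (T : Module.End F (ι → F)) (hT : OPres Q T) (hT2 : T * T = 1)
    (hcore : ∀ k : ℕ, 4 * k ≤ 2 * d → ∃ W : Submodule F (ι → F),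
      W.map T ≤ W ∧ ONd Q W ∧ OPl Q W ∧ finrank F W = 4 * k) :
    ∃ W : Submodule F (ι → F), (finrank F W = m ∧
      IsNondegenerateOn (QuadraticMap.polar Q) W ∧ IsPlusTypeOn Q W) ∧ W.map T ≤ W := by
  by_cases hm4 : m % 4 = 0
  · obtain ⟨W, hWT, hWnd, hWpl, hWdim⟩ := hcore (m / 4) (by omega)
    exact ⟨W, ⟨by rw [hWdim]; omega, hWnd, hWpl⟩, hWT⟩
  · have hd2 : (2 * d) % 4 = 2 := by
      rcases hcond with h | h
      · exact h
      · exact absurd h hm4
    have hm2 : m % 4 = 2 := by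
      obtain ⟨j, hj⟩ := hme
      omega
    obtain ⟨W', hWT, hWnd, hWpl, hWdim⟩ := hcore ((2 * d - m) / 4) (by omega)
    have hWdim' : finrank F W' = 2 * d - m := by
      rw [hWdim]
      omega
    obtain ⟨P, -, hPT, hPnd, hinf, hsup, horth, hdim⟩ :=
      Cfsg.Agent.Helper31.OH5992.o_perp Q hQ T hT 2 (by norm_num) (by rw [pow_two]; exact hT2)
        ⊤ W' (ond_top Q hQ) hWnd le_top le_top hWT
    have htopdim : finrank F (⊤ : Submodule F (ι → F)) = 2 * d := by
      rw [finrank_top, Module.finrank_fintype_fun_eq_card, hcard]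
    have hPdim : finrank F P = m := by omega
    have hmul := Cfsg.Agent.Helper33.o_type_mul Q hQ W' P hWnd hPnd horth
      (by rw [hWdim]; exact ⟨2 * ((2 * d - m) / 4), by ring⟩) (by rw [hPdim]; exact hme)
    rw [hsup] at hmul
    exact ⟨P, ⟨hPdim, hPnd, (hmul.mp hplus).mp hWpl⟩, hPT⟩

/-- the stage from CORE (at `U = ⊤`) as a hypothesis. -/
theorem t2g_stage_of_core {F : Type*} [Field F] [Fintype F] {p : ℕ} [Fact p.Prime] [CharP F p]
    {q : ℕ} (hq : Fintype.card F = q)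
    (d m : ℕ) (hd : 4 ≤ d) (hm : 2 ≤ m) (hme : Even m) (hmd : m < d) (hp2 : p = 2)
    (hcond : (2 * d) % 4 = 2 ∨ m % 4 = 0 ∨ q % 4 = 1)
    (hcore : IsNondegenerateQuadraticForm (Cfsg.quadFormPlus d F) → (2 : F) = 0 →
      ∀ T : Module.End F (Fin d ⊕ Fin d → F), OPres (Cfsg.quadFormPlus d F) T → T * T = 1 →
      ∀ k : ℕ, 4 * k ≤ 2 * d → ∃ W : Submodule F (Fin d ⊕ Fin d → F),
        W.map T ≤ W ∧ ONd (Cfsg.quadFormPlus d F) W ∧ OPl (Cfsg.quadFormPlus d F) W ∧
          finrank F W = 4 * k) :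
    AllHyp (Cfsg.quadFormPlus d F) 2 m := by
  classical
  obtain ⟨hQ, hplus⟩ := Cfsg.Agent.Helper35.TS5973.ts_std_plus (F := F) d
  have h2F : (2 : F) = 0 := by
    have h := CharP.cast_eq_zero F p
    rw [hp2] at h
    exact_mod_cast h
  have hqeven : q % 2 = 0 := by
    obtain ⟨n, -, hc⟩ := FiniteField.card F p
    rw [← hq, hc, hp2]
    have hn : 0 < (n : ℕ) := n.pos
    obtain ⟨k, hk⟩ := Nat.exists_eq_succ_of_ne_zero hn.ne'
    rw [hk, pow_succ]
    omega
  have hcond' : (2 * d) % 4 = 2 ∨ m % 4 = 0 := by omega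
  have hcard : Fintype.card (Fin d ⊕ Fin d) = 2 * d := by
    rw [Fintype.card_sum, Fintype.card_fin]
    omega
  have hne : Nonempty (Fin d ⊕ Fin d) := Fintype.card_pos_iff.mp (by omega)
  intro x hx hz hns
  obtain ⟨z, hz⟩ := hz
  obtain ⟨g, hgΩ, rfl⟩ := (Cfsg.Agent.Helper90.TS5973.r2a_mem_omegaGL _ x).mp hx
  have hM := Cfsg.Agent.Helper90.TS5973.r2a_iso (Cfsg.quadFormPlus d F) g
  rw [Cfsg.Agent.Helper90.TS5973.r2a_sq] at hz
  have hz1 : z = 1 := by
    rcases Cfsg.Agent.Helper70.TSR2.r2_z _ hQ hne _ hM z hz with h | h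
    · exact h
    · rw [h]
      have h11 : (1 : F) + 1 = 0 := by
        rw [one_add_one_eq_two]
        exact h2F
      exact neg_eq_of_add_eq_zero_left h11
  rw [hz1, one_smul] at hz
  rw [invHyp_iff]
  refine t2g_final (Cfsg.quadFormPlus d F) hQ hplus d m hcard hme (by omega) hcond'
    (Matrix.toLin' ((g : GL (Fin d ⊕ Fin d) F) : Matrix (Fin d ⊕ Fin d) (Fin d ⊕ Fin d) F))
    ?_ ?_ ?_
  · intro v
    rw [Matrix.toLin'_apply]
    exact hM v
  · rw [Module.End.mul_eq_comp, ← Matrix.toLin'_mul, hz, Matrix.toLin'_one]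
    rfl
  · refine hcore hQ h2F _ ?_ ?_
    · intro v
      rw [Matrix.toLin'_apply]
      exact hM v
    · rw [Module.End.mul_eq_comp, ← Matrix.toLin'_mul, hz, Matrix.toLin'_one]
      rfl

end Cfsg.Agent.Helper38.S74
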