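import Mathlib
import Cfsg.Prelude.Def_GeometricClasses
import Cfsg.Prelude.Def_Classical
import Cfsg.Agent.Helper65.S74Defs
import Cfsg.Agent.Helper38.S74T2GFinal
import Cfsg.Agent.Helper38.S74T2GCore
import Cfsg.Agent.Helper38.S74T2GBlk

set_option autoImplicit false
set_option linter.unusedVariables false

/-!
# CALL S74 (helper65), stage T2G (helper38): `r = p = 2`, `⟸` of row S5974.

`q` even, `x ∈ Ω` with `x ^ 2` scalar: `x` is an isometry with `x * x = 1`
(`Helper38.S74.t2g_stage_of_core`).  BLK (`t2g_blk`): every invariant nondegenerate subspace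
contains an invariant nondegenerate block of dimension `2`, or of dimension `4` and plus type.
FOUR / CORE (`t2g_four`, `t2g_core_of_blk`): invariant nondegenerate plus-type subspaces of every
dimension `4 k ≤ 2 d`.  FINAL (`t2g_final`): `m ≡ 0 (4)` directly; `d` odd, `m ≡ 2 (4)`: the
orthogonal complement of such a space of dimension `2 d - m`.
-/

namespace Cfsg.Agent.Helper38.S74

open Module Cfsg Cfsg.Geo Cfsg.Agent.Helper65.S74
open scoped MatrixGroups

variable {F : Type*} [Field F] [Fintype F]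

/-- T2G [BIG, NEW] (`r = p = 2`, `⟸`): `q` even, `x ∈ O(Q)` any involution (membership in `Ω` is
not needed).  `V` is an orthogonal sum of `x`-invariant nondegenerate blocks of dimension `2` or
`4` (if `polar v (x v) ≠ 0` for some `v`: the plane `⟨v, x v⟩`; otherwise, `x ≠ 1`: a `4`-space
`⟨v, x v, w, x w⟩` of plus type; `x = 1`: any nondegenerate plane); with `A` four-blocks (plus type),
`h` hyperbolic and `e` elliptic planes: `e` is even, `2 A + h + e = d`; `m / 2 = 2 a' + h' + e'`
with `e'` even is solvable iff `m ≡ 0 (4)` or `h ≥ 1`, and `d` odd forces `h` odd. -/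
theorem s74_two_even_good {p : ℕ} [Fact p.Prime] [CharP F p] {q : ℕ} (hq : Fintype.card F = q)
    (d m : ℕ) (hd : 4 ≤ d) (hm : 2 ≤ m) (hme : Even m) (hmd : m < d) (hp2 : p = 2)
    (hcond : (2 * d) % 4 = 2 ∨ m % 4 = 0 ∨ q % 4 = 1) :
    AllHyp (Cfsg.quadFormPlus d F) 2 m := by
  refine t2g_stage_of_core hq d m hd hm hme hmd hp2 hcond ?_
  intro hQ h2 T hT hT2 k hk
  have htop : finrank F (⊤ : Submodule F (Fin d ⊕ Fin d → F)) = 2 * d := by
    rw [finrank_top, Module.finrank_fintype_fun_eq_card, Fintype.card_sum, Fintype.card_fin]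
    omega
  obtain ⟨-, hplus⟩ := Cfsg.Agent.Helper35.TS5973.ts_std_plus (F := F) d
  obtain ⟨W, -, hWT, hW, hWp, hWd⟩ := t2g_core_of_blk (Cfsg.quadFormPlus d F) hQ T hT hT2
    (fun U hUT hU hU0 => t2g_blk (Cfsg.quadFormPlus d F) hQ h2 T hT hT2 U hUT hU hU0)
    ⊤ le_top (Cfsg.Agent.Helper96.OH.ond_top _ hQ) hplus k (by rw [htop]; exact hk)
  exact ⟨W, hWT, hW, hWp, hWd⟩

end Cfsg.Agent.Helper38.S74
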