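import Mathlib
import Cfsg.Prelude.Def_GeometricClasses
import Cfsg.Prelude.Def_Classical

set_option autoImplicit false

/-!
# Sub-CALL S88R2 (helper90), piece EIGEX (helper38): the diagonal matrix `s` on the `inl`
coordinates, `-s` on the `inr` coordinates is an isometry of `Σ x_i y_i` with square `-1`.
-/

namespace Cfsg.Agent.Helper38.S88R2

open Module Cfsg Cfsg.Geo
open scoped MatrixGroups

/-- the diagonal weight: `s` on `inl`, `-s` on `inr`. -/
def eigexW {F : Type*} [Field F] (d : ℕ) (s : F) : Fin d ⊕ Fin d → F :=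
  Sum.elim (fun _ => s) (fun _ => -s)

theorem eigex_sq {F : Type*} [Field F] (d : ℕ) (s : F) (hs : s * s = -1) :
    Matrix.diagonal (eigexW d s) * Matrix.diagonal (eigexW d s) =
      (-1 : Matrix (Fin d ⊕ Fin d) (Fin d ⊕ Fin d) F) := by
  rw [Matrix.diagonal_mul_diagonal]
  have h : (fun i => eigexW d s i * eigexW d s i) = fun _ => (-1 : F) := by
    funext i
    rcases i with i | i
    · exact hs
    · show -s * -s = -1
      rw [neg_mul_neg, hs]
  rw [h]
  ext i j
  by_cases hij : i = j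
  · subst hij
    simp
  · simp [hij]

/-- the diagonal element of `GL`. -/
def eigexG {F : Type*} [Field F] (d : ℕ) (s : F) (hs : s * s = -1) : GL (Fin d ⊕ Fin d) F :=
  ⟨Matrix.diagonal (eigexW d s), -Matrix.diagonal (eigexW d s),
    by rw [Matrix.mul_neg, eigex_sq d s hs, neg_neg],
    by rw [Matrix.neg_mul, eigex_sq d s hs, neg_neg]⟩

theorem eigex_mem {F : Type*} [Field F] (d : ℕ) (s : F) (hs : s * s = -1) :
    eigexG d s hs ∈ Cfsg.isometryGroup F (Cfsg.quadFormPlus d F) := by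
  intro u _
  show Cfsg.quadFormPlus d F (Matrix.mulVec (Matrix.diagonal (eigexW d s)) u) =
    Cfsg.quadFormPlus d F u
  show ∑ i : Fin d, (Matrix.mulVec (Matrix.diagonal (eigexW d s)) u) (.inl i) *
      (Matrix.mulVec (Matrix.diagonal (eigexW d s)) u) (.inr i) =
    ∑ i : Fin d, u (.inl i) * u (.inr i)
  refine Finset.sum_congr rfl (fun i _ => ?_)
  rw [Matrix.mulVec_diagonal, Matrix.mulVec_diagonal]
  show s * u (.inl i) * (-s * u (.inr i)) = u (.inl i) * u (.inr i)
  linear_combination (-(u (.inl i) * u (.inr i))) * hs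

variable {ι : Type} [Fintype ι] [DecidableEq ι] {F : Type*} [Field F] [Fintype F]

/-- EIGEX [S-M] (concrete): the diagonal matrix `s` on the `inl`-coordinates, `-s` on the
`inr`-coordinates is an isometry of `Σ x_i y_i` with square `-1`. -/
theorem r2e_eig_ex (d : ℕ) (s : F) (hs : s * s = -1) :
    ∃ g : ↥(Cfsg.isometryGroup F (Cfsg.quadFormPlus d F)),
      ((g : GL (Fin d ⊕ Fin d) F) : Matrix (Fin d ⊕ Fin d) (Fin d ⊕ Fin d) F) *
        ((g : GL (Fin d ⊕ Fin d) F) : Matrix (Fin d ⊕ Fin d) (Fin d ⊕ Fin d) F) = -1 :=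
  ⟨⟨eigexG d s hs, eigex_mem d s hs⟩, eigex_sq d s hs⟩

end Cfsg.Agent.Helper38.S88R2
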