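import Mathlib
import Cfsg.Prelude.Def_GeometricClasses
import Cfsg.Prelude.Def_Classical
import Cfsg.Agent.Helper35.S88Defs
import Cfsg.Agent.Helper35.TSSTDM
import Cfsg.Agent.Helper90.TSR2Main
import Cfsg.Agent.Helper38.S74T2GCore
import Cfsg.Agent.Helper38.S74T2GBlk

set_option autoImplicit false
set_option linter.unusedVariables false

/-!
# CALL S90 (helper98), stage T2G (helper38): `r = p = 2`, `⟸` of row S5990 (`PΩ⁻`, elliptic).

`q` even, `x` an isometry with `x * x = 1` of the minus-type form `Q`, ambient dimension `2 d`.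
* `t2m_ell_plane`: an invariant nondegenerate even-dimensional subspace NOT of plus type contains
  an invariant nondegenerate plane not of plus type (peel plus-type blocks of `t2g_blk`).
* `t2m_rel`: relative FINAL: in an invariant nondegenerate plus-type `U` of dimension `2 n` there
  is an invariant nondegenerate plus-type subspace of every even dimension `m ≤ 2 n` with
  `(2 n) % 4 = 2 ∨ m % 4 = 0` (`t2g_core_of_blk`, complement for `m ≡ 2 (4)`).
* `t2m_final`: `E` an invariant elliptic plane of `V`, `U = E^⊥` (plus type, dimension `2 d - 2`),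
  `X ≤ U` invariant plus-type of dimension `m - 2`: `W = E ⊥ X` is elliptic of dimension `m`.
-/

namespace Cfsg.Agent.Helper38.S90

open Module Cfsg Cfsg.Geo Cfsg.Agent.Helper35.S88 Cfsg.Agent.Helper96.OH Cfsg.Agent.Helper38.S74
open scoped MatrixGroups

section gen

variable {ι : Type} [Fintype ι] [DecidableEq ι] {F : Type*} [Field F] [Fintype F]

/-- relative FINAL (plus-type ambient `U`). -/
theorem t2m_rel (Q : (ι → F) → F) (hQ : IsNondegenerateQuadraticForm Q)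
    (T : Module.End F (ι → F)) (hT : OPres Q T) (hT2 : T * T = 1)
    (hblk : ∀ U : Submodule F (ι → F), U.map T ≤ U → ONd Q U → U ≠ ⊥ →
      ∃ B : Submodule F (ι → F), B ≤ U ∧ B.map T ≤ B ∧ ONd Q B ∧
        (finrank F B = 2 ∨ (finrank F B = 4 ∧ OPl Q B)))
    (U : Submodule F (ι → F)) (hUT : U.map T ≤ U) (hU : ONd Q U) (hUp : OPl Q U)
    (n m : ℕ) (hUd : finrank F U = 2 * n) (hme : Even m) (hmn : m ≤ 2 * n)
    (hcond : (2 * n) % 4 = 2 ∨ m % 4 = 0) :
    ∃ X : Submodule F (ι → F), X ≤ U ∧ X.map T ≤ X ∧ ONd Q X ∧ OPl Q X ∧ finrank F X = m := by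
  have hTr : T ^ 2 = 1 := by
    rw [pow_two]
    exact hT2
  by_cases hm4 : m % 4 = 0
  · obtain ⟨W, hWU, hWT, hW, hWp, hWd⟩ :=
      t2g_core_of_blk Q hQ T hT hT2 hblk U hUT hU hUp (m / 4) (by omega)
    exact ⟨W, hWU, hWT, hW, hWp, by rw [hWd]; omega⟩
  · have hd2 : (2 * n) % 4 = 2 := by
      rcases hcond with h | h
      · exact h
      · exact absurd h hm4
    have hm2 : m % 4 = 2 := by
      obtain ⟨j, hj⟩ := hme
      omega
    obtain ⟨W', hW'U, hWT, hWnd, hWpl, hWdim⟩ :=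
      t2g_core_of_blk Q hQ T hT hT2 hblk U hUT hU hUp ((2 * n - m) / 4) (by omega)
    obtain ⟨P, hPU, hPT, hPnd, -, hsup, horth, hdim⟩ :=
      Cfsg.Agent.Helper31.OH5992.o_perp Q hQ T hT 2 (by norm_num) hTr U W' hU hWnd hW'U hUT hWT
    have hPdim : finrank F P = m := by omega
    have hmul := Cfsg.Agent.Helper33.o_type_mul Q hQ W' P hWnd hPnd horth
      (by rw [hWdim]; exact ⟨2 * ((2 * n - m) / 4), by ring⟩) (by rw [hPdim]; exact hme)
    rw [hsup] at hmul
    exact ⟨P, hPU, hPT, hPnd, (hmul.mp hUp).mp hWpl, hPdim⟩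

/-- an invariant nondegenerate even-dimensional subspace not of plus type contains an invariant
nondegenerate plane not of plus type. -/
theorem t2m_ell_plane (Q : (ι → F) → F) (hQ : IsNondegenerateQuadraticForm Q)
    (T : Module.End F (ι → F)) (hT : OPres Q T) (hT2 : T * T = 1)
    (hblk : ∀ U : Submodule F (ι → F), U.map T ≤ U → ONd Q U → U ≠ ⊥ →
      ∃ B : Submodule F (ι → F), B ≤ U ∧ B.map T ≤ B ∧ ONd Q B ∧
        (finrank F B = 2 ∨ (finrank F B = 4 ∧ OPl Q B))) :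
    ∀ (N : ℕ) (U : Submodule F (ι → F)), finrank F U ≤ N → U.map T ≤ U → ONd Q U →
      ¬ OPl Q U → Even (finrank F U) →
      ∃ E : Submodule F (ι → F), E ≤ U ∧ E.map T ≤ E ∧ ONd Q E ∧ ¬ OPl Q E ∧
        finrank F E = 2 := by
  have hTr : T ^ 2 = 1 := by
    rw [pow_two]
    exact hT2
  intro N
  induction N with
  | zero =>
    intro U hN hUT hU hUnp hUev
    exfalso
    have h0 : U = ⊥ := Submodule.finrank_eq_zero.mp (by omega)
    rw [h0] at hUnp
    exact hUnp (Cfsg.Agent.Helper33.o_plus_bot Q hQ)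
  | succ N ih =>
    intro U hN hUT hU hUnp hUev
    have hU0 : U ≠ ⊥ := by
      rintro rfl
      exact hUnp (Cfsg.Agent.Helper33.o_plus_bot Q hQ)
    obtain ⟨B, hBU, hBT, hB, hBd⟩ := hblk U hUT hU hU0
    by_cases hBp : OPl Q B
    · have hBev : Even (finrank F B) ∧ 0 < finrank F B := by
        rcases hBd with h | ⟨h, -⟩
        · rw [h]
          exact ⟨⟨1, rfl⟩, by norm_num⟩
        · rw [h]
          exact ⟨⟨2, rfl⟩, by norm_num⟩
      obtain ⟨P, hPU, hPT, hP, -, hsup, horth, hdim⟩ :=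
        Cfsg.Agent.Helper31.OH5992.o_perp Q hQ T hT 2 (by norm_num) hTr U B hU hB hBU hUT hBT
      have hPev : Even (finrank F P) := by
        obtain ⟨j, hj⟩ := hUev
        obtain ⟨i, hi⟩ := hBev.1
        exact ⟨j - i, by omega⟩
      have hmul := Cfsg.Agent.Helper33.o_type_mul Q hQ B P hB hP horth hBev.1 hPev
      rw [hsup] at hmul
      have hPnp : ¬ OPl Q P := fun h => hUnp (hmul.mpr ⟨fun _ => h, fun _ => hBp⟩)
      obtain ⟨E, hEP, hET, hE, hEnp, hEd⟩ := ih P (by omega) hPT hP hPnp hPev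
      exact ⟨E, hEP.trans hPU, hET, hE, hEnp, hEd⟩
    · rcases hBd with h | ⟨-, h⟩
      · exact ⟨B, hBU, hBT, hB, hBp, h⟩
      · exact absurd h hBp

/-- FINAL for a minus-type ambient form. -/
theorem t2m_final (Q : (ι → F) → F) (hQ : IsNondegenerateQuadraticForm Q)
    (hminus : ¬ IsPlusTypeOn Q ⊤) (d m : ℕ) (hcard : Fintype.card ι = 2 * d) (hm : 2 ≤ m)
    (hme : Even m) (hmn : m + 2 ≤ 2 * d) (hcond : Even d ∨ m % 4 = 2)
    (T : Module.End F (ι → F)) (hT : OPres Q T) (hT2 : T * T = 1)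
    (hblk : ∀ U : Submodule F (ι → F), U.map T ≤ U → ONd Q U → U ≠ ⊥ →
      ∃ B : Submodule F (ι → F), B ≤ U ∧ B.map T ≤ B ∧ ONd Q B ∧
        (finrank F B = 2 ∨ (finrank F B = 4 ∧ OPl Q B))) :
    ∃ W : Submodule F (ι → F), (finrank F W = m ∧
      IsNondegenerateOn (QuadraticMap.polar Q) W ∧ ¬ IsPlusTypeOn Q W) ∧ W.map T ≤ W := by
  have hTr : T ^ 2 = 1 := by
    rw [pow_two]
    exact hT2
  have htopdim : finrank F (⊤ : Submodule F (ι → F)) = 2 * d := by
    rw [finrank_top, Module.finrank_fintype_fun_eq_card, hcard]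
  obtain ⟨E, -, hET, hE, hEnp, hEd⟩ := t2m_ell_plane Q hQ T hT hT2 hblk (2 * d) ⊤
    (by rw [htopdim]) le_top (ond_top Q hQ) hminus (by rw [htopdim]; exact ⟨d, by ring⟩)
  obtain ⟨U, -, hUT, hU, -, hsup, horth, hdim⟩ :=
    Cfsg.Agent.Helper31.OH5992.o_perp Q hQ T hT 2 (by norm_num) hTr ⊤ E (ond_top Q hQ) hE
      le_top le_top hET
  have hUd : finrank F U = 2 * (d - 1) := by omega
  have hEev : Even (finrank F E) := by
    rw [hEd]
    exact ⟨1, rfl⟩
  have hUp : OPl Q U := by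
    have hmul := Cfsg.Agent.Helper33.o_type_mul Q hQ E U hE hU horth hEev
      (by rw [hUd]; exact ⟨d - 1, by ring⟩)
    rw [hsup] at hmul
    by_contra hUnp
    exact hminus (hmul.mpr ⟨fun h => absurd h hEnp, fun h => absurd h hUnp⟩)
  have hme2 : Even (m - 2) := by
    obtain ⟨j, hj⟩ := hme
    exact ⟨j - 1, by omega⟩
  obtain ⟨X, hXU, hXT, hX, hXp, hXd⟩ := t2m_rel Q hQ T hT hT2 hblk U hUT hU hUp (d - 1) (m - 2)
    hUd hme2 (by omega) (by
      rcases hcond with h | h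
      · left
        obtain ⟨j, hj⟩ := h
        omega
      · right
        omega)
  have hoX : OOrth Q E X := fun u hu v hv => horth u hu v (hXU hv)
  have hmul := Cfsg.Agent.Helper33.o_type_mul Q hQ E X hE hX hoX hEev (by rw [hXd]; exact hme2)
  refine ⟨E ⊔ X, ⟨?_, Cfsg.Agent.Helper33.OType.nondeg_sup Q hQ E X hE hX hoX, ?_⟩, ?_⟩
  · rw [Cfsg.Agent.Helper33.OType.finrank_sup_of_orth Q E X hE hoX, hEd, hXd]
    omega
  · intro h
    exact hEnp ((hmul.mp h).mpr hXp)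
  · rw [Submodule.map_sup]
    exact sup_le_sup hET hXT

end gen

variable {F : Type*} [Field F] [Fintype F]

/-- T2G [BIG, NEW] (`r = p = 2`, `⟸`) of row S5990. -/
theorem s90_two_even_good {p : ℕ} [Fact p.Prime] [CharP F p] (d m : ℕ) (hd : 4 ≤ d) (hm : 2 ≤ m)
    (hme : Even m) (hmn : m + 2 ≤ 2 * d) (a b : F)
    (hab : ∀ x y : F, x ^ 2 + a * x * y + b * y ^ 2 = 0 → x = 0 ∧ y = 0) (hp2 : p = 2)
    (hcond : Even d ∨ m % 4 = 2) :
    AllEll (Cfsg.quadFormMinus (d - 1) F a b) 2 m := by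
  classical
  obtain ⟨hQ, hminus⟩ := Cfsg.Agent.Helper35.TS5973.ts_std_minus (F := F) (d - 1) a b hab
  have h2F : (2 : F) = 0 := by
    have h := CharP.cast_eq_zero F p
    rw [hp2] at h
    exact_mod_cast h
  have hcard : Fintype.card ((Fin (d - 1) ⊕ Fin (d - 1)) ⊕ Fin 2) = 2 * d := by
    rw [Fintype.card_sum, Fintype.card_sum, Fintype.card_fin, Fintype.card_fin]
    omega
  have hne : Nonempty ((Fin (d - 1) ⊕ Fin (d - 1)) ⊕ Fin 2) :=
    Fintype.card_pos_iff.mp (by omega)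
  intro x hx hz hns
  obtain ⟨z, hz⟩ := hz
  obtain ⟨g, hgΩ, rfl⟩ := (Cfsg.Agent.Helper90.TS5973.r2a_mem_omegaGL _ x).mp hx
  have hM := Cfsg.Agent.Helper90.TS5973.r2a_iso (Cfsg.quadFormMinus (d - 1) F a b) g
  rw [Cfsg.Agent.Helper90.TS5973.r2a_sq] at hz
  have hz1 : z = 1 := by
    rcases Cfsg.Agent.Helper70.TSR2.r2_z _ hQ hne _ hM z hz with h | h
    · exact h
    · rw [h]
      have h11 : (1 : F) + 1 = 0 := by
        rw [one_add_one_eq_two]
        exact h2F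
      exact neg_eq_of_add_eq_zero_left h11
  rw [hz1, one_smul] at hz
  have hT : OPres (Cfsg.quadFormMinus (d - 1) F a b) (Matrix.toLin'
      ((g : GL ((Fin (d - 1) ⊕ Fin (d - 1)) ⊕ Fin 2) F) :
        Matrix ((Fin (d - 1) ⊕ Fin (d - 1)) ⊕ Fin 2) ((Fin (d - 1) ⊕ Fin (d - 1)) ⊕ Fin 2) F)) := by
    intro v
    rw [Matrix.toLin'_apply]
    exact hM v
  have hT2 : (Matrix.toLin'
      ((g : GL ((Fin (d - 1) ⊕ Fin (d - 1)) ⊕ Fin 2) F) :
        Matrix ((Fin (d - 1) ⊕ Fin (d - 1)) ⊕ Fin 2) ((Fin (d - 1) ⊕ Fin (d - 1)) ⊕ Fin 2) F)) *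
      (Matrix.toLin'
      ((g : GL ((Fin (d - 1) ⊕ Fin (d - 1)) ⊕ Fin 2) F) :
        Matrix ((Fin (d - 1) ⊕ Fin (d - 1)) ⊕ Fin 2) ((Fin (d - 1) ⊕ Fin (d - 1)) ⊕ Fin 2) F)) =
      1 := by
    rw [Module.End.mul_eq_comp, ← Matrix.toLin'_mul, hz, Matrix.toLin'_one]
    rfl
  exact t2m_final (Cfsg.quadFormMinus (d - 1) F a b) hQ hminus d m hcard hm hme hmn hcond _ hT hT2
    (fun U hUT hU hU0 => t2g_blk (Cfsg.quadFormMinus (d - 1) F a b) hQ h2F _ hT hT2 U hUT hU hU0)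

end Cfsg.Agent.Helper38.S90
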